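/-
Steinberg relations for `SL_n`: Weyl elements and their action.
-/
import Mathlib

set_option autoImplicit false

namespace Cfsg.Agent.Lib.StN

variable {ι K G : Type*} [Field K] [Group G]

/-- The Steinberg relations. -/
structure Rel (x : ι → ι → K → G) : Prop where
  add : ∀ {i j : ι}, i ≠ j → ∀ t u : K, x i j t * x i j u = x i j (t + u)
  comm : ∀ {i j k l : ι}, i ≠ j → k ≠ l → i ≠ l → j ≠ k → ∀ t u : K,
    x i j t * x k l u = x k l u * x i j t
  rel : ∀ {i j k : ι}, i ≠ j → j ≠ k → i ≠ k → ∀ t u : K,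
    x i j t * x j k u * (x i j t)⁻¹ * (x j k u)⁻¹ = x i k (t * u)

/-- The Weyl element. -/
def w (x : ι → ι → K → G) (i j : ι) (u : K) : G := x i j u * x j i (-u⁻¹) * x i j u

/-- The diagonal element. -/
def h (x : ι → ι → K → G) (i j : ι) (u : K) : G := w x i j u * w x i j (-1)

namespace Rel

variable {x : ι → ι → K → G} (R : Rel x)
include R

lemma x_zero {i j : ι} (hij : i ≠ j) : x i j 0 = 1 := by
  have := R.add hij 0 0
  simpa using this

lemma x_inv {i j : ι} (hij : i ≠ j) (t : K) : (x i j t)⁻¹ = x i j (-t) := by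
  rw [inv_eq_iff_mul_eq_one, R.add hij, add_neg_cancel, R.x_zero hij]

lemma sc1 {i j k : ι} (hij : i ≠ j) (hjk : j ≠ k) (hik : i ≠ k) (t u : K) :
    SemiconjBy (x i j t) (x j k u) (x i k (t * u) * x j k u) := by
  unfold SemiconjBy
  rw [← R.rel hij hjk hik t u]; group

lemma cm {i j k l : ι} (hij : i ≠ j) (hkl : k ≠ l) (hil : i ≠ l) (hjk : j ≠ k) (t u : K) :
    SemiconjBy (x i j t) (x k l u) (x k l u) := R.comm hij hkl hil hjk t u

/-- `x_jk(u) x_ij(t) = x_ij(t) x_ik(-tu) x_jk(u)`. -/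
lemma sc2 {i j k : ι} (hij : i ≠ j) (hjk : j ≠ k) (hik : i ≠ k) (t u : K) :
    SemiconjBy (x j k u) (x i j t) (x i j t * x i k (-(t * u))) := by
  unfold SemiconjBy
  have h1 := (R.sc1 hij hjk hik t u).eq
  have h2 : x i j t * (x i k (t * u))⁻¹ = (x i k (t * u))⁻¹ * x i j t := by
    rw [R.x_inv hik]; exact R.comm hij hik hik hij.symm _ _
  rw [← R.x_inv hik, h2, mul_assoc, h1]; group

lemma cancel {i j : ι} (hij : i ≠ j) (t : K) (y : G) (hc : x i j (-t) * y = y * x i j (-t)) :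
    x i j (-t) * y * x i j t = y := by
  rw [hc, mul_assoc, R.add hij, neg_add_cancel, R.x_zero hij, mul_one]

lemma cancel' {i j : ι} (hij : i ≠ j) (t : K) (y : G) (hc : x i j t * y = y * x i j t) :
    x i j t * y * x i j (-t) = y := by
  rw [hc, mul_assoc, R.add hij, add_neg_cancel, R.x_zero hij, mul_one]

variable {i j k l : ι}

/-- `w_ij(u) x_jk(t) = x_ik(ut) w_ij(u)`. -/
lemma W1 (hij : i ≠ j) (hjk : j ≠ k) (hik : i ≠ k) {u : K} (hu : u ≠ 0) (t : K) :
    SemiconjBy (w x i j u) (x j k t) (x i k (u * t)) := by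
  have s1 := R.sc1 hij hjk hik u t
  have s2 : SemiconjBy (x j i (-u⁻¹)) (x i k (u * t) * x j k t) (x i k (u * t)) := by
    have a3 := (R.sc1 hij.symm hik hjk (-u⁻¹) (u * t)).mul_right (R.cm hij.symm hjk hjk hij (-u⁻¹) t)
    have e : -u⁻¹ * (u * t) = -t := by field_simp
    rw [e] at a3
    rwa [R.cancel hjk t _ (R.comm hjk hik hjk hik.symm.symm.symm _ _ |>.trans rfl)] at a3
  have s3 := R.cm hij hik hik hij.symm u (u * t)
  exact (s3.mul_left s2).mul_left s1

/-- `w_ij(u) x_ik(t) = x_jk(-u⁻¹ t) w_ij(u)`. -/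
lemma W2 (hij : i ≠ j) (hjk : j ≠ k) (hik : i ≠ k) {u : K} (hu : u ≠ 0) (t : K) :
    SemiconjBy (w x i j u) (x i k t) (x j k (-u⁻¹ * t)) := by
  have s1 := R.cm hij hik hik hij.symm u t
  have s2 := R.sc1 hij.symm hik hjk (-u⁻¹) t
  have s3 : SemiconjBy (x i j u) (x j k (-u⁻¹ * t) * x i k t) (x j k (-u⁻¹ * t)) := by
    have a3 := (R.sc1 hij hjk hik u (-u⁻¹ * t)).mul_right (R.cm hij hik hik hij.symm u t)
    have e : u * (-u⁻¹ * t) = -t := by field_simp
    rw [e, R.cancel hik t _ (R.comm hik hjk hik hjk.symm _ _)] at a3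
    exact a3
  exact (s3.mul_left s2).mul_left s1

/-- `w_ij(u) x_ki(t) = x_kj(-ut) w_ij(u)`. -/
lemma W3 (hij : i ≠ j) (hki : k ≠ i) (hkj : k ≠ j) {u : K} (hu : u ≠ 0) (t : K) :
    SemiconjBy (w x i j u) (x k i t) (x k j (-u * t)) := by
  have s1 := R.sc2 hki hij hkj t u
  have e0 : -(t * u) = -u * t := by ring
  rw [e0] at s1
  have s2 : SemiconjBy (x j i (-u⁻¹)) (x k i t * x k j (-u * t)) (x k j (-u * t)) := by
    have a3 := (R.cm hij.symm hki hij.symm hki.symm (-u⁻¹) t).mul_right (R.sc2 hkj hij.symm hki (-u * t) (-u⁻¹))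
    have e : -(-u * t * -u⁻¹) = -t := by field_simp
    rw [e, ← mul_assoc, R.cancel' hki t _ (R.comm hki hkj hkj hki.symm _ _)] at a3
    exact a3
  have s3 := R.cm hij hkj hij hkj.symm u (-u * t)
  exact (s3.mul_left s2).mul_left s1

/-- `w_ij(u) x_kj(t) = x_ki(u⁻¹ t) w_ij(u)`. -/
lemma W4 (hij : i ≠ j) (hki : k ≠ i) (hkj : k ≠ j) {u : K} (hu : u ≠ 0) (t : K) :
    SemiconjBy (w x i j u) (x k j t) (x k i (u⁻¹ * t)) := by
  have s1 := R.cm hij hkj hij hkj.symm u t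
  have s2 := R.sc2 hkj hij.symm hki t (-u⁻¹)
  have e0 : -(t * -u⁻¹) = u⁻¹ * t := by ring
  rw [e0] at s2
  have s3 : SemiconjBy (x i j u) (x k j t * x k i (u⁻¹ * t)) (x k i (u⁻¹ * t)) := by
    have a3 := (R.cm hij hkj hij hkj.symm u t).mul_right (R.sc2 hki hij hkj (u⁻¹ * t) u)
    have e : -(u⁻¹ * t * u) = -t := by field_simp
    rw [e, ← mul_assoc, R.cancel' hkj t _ (R.comm hkj hki hki hkj.symm _ _)] at a3
    exact a3
  exact (s3.mul_left s2).mul_left s1

/-- `w_ij(u)` commutes with `x_kl(t)` for `k, l ∉ {i, j}`. -/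
lemma W5 (hij : i ≠ j) (hkl : k ≠ l) (hik : i ≠ k) (hil : i ≠ l) (hjk : j ≠ k) (hjl : j ≠ l) (u t : K) :
    SemiconjBy (w x i j u) (x k l t) (x k l t) := by
  have s1 := R.cm hij hkl hil hjk u t
  have s2 := R.cm hij.symm hkl hjl hik (-u⁻¹) t
  exact (s1.mul_left s2).mul_left s1

/-- `w_ij(u) x_ij(t) = x_ji(-u⁻²t) w_ij(u)`. -/
lemma W6 (hij : i ≠ j) (hki : k ≠ i) (hkj : k ≠ j) {u : K} (hu : u ≠ 0) (t : K) :
    SemiconjBy (w x i j u) (x i j t) (x j i (-(u⁻¹ * u⁻¹) * t)) := by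
  have a1 := R.W2 hij hkj.symm hki.symm hu t
  have a2 := R.W4 hij hki hkj hu 1
  have a := ((a1.mul_right a2).mul_right a1.inv_right).mul_right a2.inv_right
  rw [R.rel hki.symm hkj hij, R.rel hkj.symm hki hij.symm] at a
  have e1 : t * 1 = t := mul_one t
  have e2 : -u⁻¹ * t * (u⁻¹ * 1) = -(u⁻¹ * u⁻¹) * t := by ring
  rwa [e1, e2] at a

/-- `w_ij(u) x_ji(t) = x_ij(-u²t) w_ij(u)`. -/
lemma W7 (hij : i ≠ j) (hki : k ≠ i) (hkj : k ≠ j) {u : K} (hu : u ≠ 0) (t : K) :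
    SemiconjBy (w x i j u) (x j i t) (x i j (-(u * u) * t)) := by
  have a1 := R.W1 hij hkj.symm hki.symm hu t
  have a2 := R.W3 hij hki hkj hu 1
  have a := ((a1.mul_right a2).mul_right a1.inv_right).mul_right a2.inv_right
  rw [R.rel hkj.symm hki hij.symm, R.rel hki.symm hkj hij] at a
  have e1 : t * 1 = t := mul_one t
  have e2 : u * t * (-u * 1) = -(u * u) * t := by ring
  rwa [e1, e2] at a

lemma w_inv (hij : i ≠ j) (u : K) : (w x i j u)⁻¹ = w x i j (-u) := by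
  unfold w
  simp only [mul_inv_rev, R.x_inv hij, R.x_inv hij.symm, inv_neg, neg_neg, mul_assoc]

lemma w_swap (hij : i ≠ j) (hki : k ≠ i) (hkj : k ≠ j) {u : K} (hu : u ≠ 0) :
    w x j i (-u⁻¹) = w x i j u := by
  have a := (R.W7 hij hki hkj hu (-u⁻¹)).eq
  have e : -(u * u) * -u⁻¹ = u := by field_simp
  rw [e] at a
  have e2 : -(-u⁻¹)⁻¹ = u := by simp
  unfold w at a ⊢
  rw [e2]
  apply mul_left_cancel (a := x i j u)
  rw [← a]; simp only [mul_assoc]

omit R in
/-- General transport of Weyl elements. -/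
lemma w_sc {g : G} {a b c d : ι} {χ : K}
    (h1 : ∀ t, SemiconjBy g (x a b t) (x c d (χ * t)))
    (h2 : ∀ t, SemiconjBy g (x b a t) (x d c (χ⁻¹ * t))) {t : K} :
    SemiconjBy g (w x a b t) (w x c d (χ * t)) := by
  unfold w
  have e : χ⁻¹ * -t⁻¹ = -(χ * t)⁻¹ := by simp; ring
  have := ((h1 t).mul_right (h2 (-t⁻¹))).mul_right (h1 t)
  rwa [e] at this

lemma w_conj (hij : i ≠ j) (hki : k ≠ i) (hkj : k ≠ j) {u t : K} (hu : u ≠ 0) (ht : t ≠ 0) :
    SemiconjBy (w x i j u) (w x i j t) (w x i j (u * u * t⁻¹)) := by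
  have huu : u * u * t⁻¹ ≠ 0 := by positivity
  have a := ((R.W6 hij hki hkj hu t).mul_right (R.W7 hij hki hkj hu (-t⁻¹))).mul_right (R.W6 hij hki hkj hu t)
  rw [← R.w_swap hij hki hkj huu]
  unfold w at a ⊢
  have e1 : -(u * u) * -t⁻¹ = u * u * t⁻¹ := by ring
  have e2 : -(u * u * t⁻¹)⁻¹ = -(u⁻¹ * u⁻¹) * t := by field_simp
  have e3 : -(-(u * u * t⁻¹)⁻¹)⁻¹ = u * u * t⁻¹ := by simp
  rw [e3, e2]
  rwa [e1] at a

lemma h_eq (hij : i ≠ j) (u : K) : w x i j u = h x i j u * w x i j 1 := by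
  unfold h
  rw [mul_assoc, ← R.w_inv hij 1]; group

lemma w_one_inv (hij : i ≠ j) : w x i j (-1 : K) = (w x i j (1 : K))⁻¹ := (R.w_inv hij 1).symm

lemma h_one (hij : i ≠ j) : h x i j (1 : K) = 1 := by
  unfold h
  rw [R.w_one_inv hij]; group

section dg
variable [DecidableEq ι]

/-- Diagonal entries of `h_ij(u)`. -/
def dg (i j : ι) (u : K) (k : ι) : K := if k = i then u else if k = j then u⁻¹ else 1

omit R in
lemma dg_mul (hij : i ≠ j) (u t : K) (k : ι) : dg i j (u * t) k = dg i j u k * dg i j t k := by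
  unfold dg
  split_ifs <;> simp [mul_inv, mul_comm]

omit R in
lemma dg_ne (hij : i ≠ j) {u : K} (hu : u ≠ 0) (k : ι) : dg i j u k ≠ 0 := by
  unfold dg
  split_ifs <;> simp [hu]

/-- Action of `h_ij(u)`. -/
lemma h_act (h3 : ∀ a b : ι, ∃ c, c ≠ a ∧ c ≠ b) (hij : i ≠ j) {u : K} (hu : u ≠ 0) (hkl : k ≠ l) (t : K) :
    SemiconjBy (h x i j u) (x k l t) (x k l (dg i j u k * (dg i j u l)⁻¹ * t)) := by
  obtain ⟨c, hci, hcj⟩ := h3 i j
  have hm : (-1 : K) ≠ 0 := by simp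
  unfold h
  by_cases hki : k = i
  · subst hki
    by_cases hlj : l = j
    · subst hlj
      have := (R.W7 hij hci hcj hu _).mul_left (R.W6 hij hci hcj hm t)
      have e : dg k l u k * (dg k l u l)⁻¹ * t = -(u * u) * (-((-1 : K)⁻¹ * (-1)⁻¹) * t) := by
        simp [dg, hij.symm]
      rwa [e]
    · have hil : k ≠ l := hkl
      have hjl : j ≠ l := fun e => hlj e.symm
      have := (R.W1 hij hjl hil hu _).mul_left (R.W2 hij hjl hil hm t)
      have e : dg k j u k * (dg k j u l)⁻¹ * t = u * (-(-1 : K)⁻¹ * t) := by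
        simp [dg, hij.symm, hlj, hkl.symm]
      rwa [e]
  · by_cases hkj : k = j
    · subst hkj
      by_cases hli : l = i
      · subst hli
        have := (R.W6 hij hci hcj hu _).mul_left (R.W7 hij hci hcj hm t)
        have e : dg l k u k * (dg l k u l)⁻¹ * t = -(u⁻¹ * u⁻¹) * (-((-1 : K) * (-1)) * t) := by
          simp [dg, hij.symm]
        rwa [e]
      · have hil : i ≠ l := fun e => hli e.symm
        have := (R.W2 hij hkl hil hu _).mul_left (R.W1 hij hkl hil hm t)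
        have e : dg i k u k * (dg i k u l)⁻¹ * t = -u⁻¹ * ((-1 : K) * t) := by
          simp [dg, hij.symm, hli, hkl.symm]
        rwa [e]
    · by_cases hli : l = i
      · subst hli
        have := (R.W4 hij hki hkj hu _).mul_left (R.W3 hij hki hkj hm t)
        have e : dg l j u k * (dg l j u l)⁻¹ * t = u⁻¹ * (-(-1 : K) * t) := by
          simp [dg, hki, hkj]
        rwa [e]
      · by_cases hlj : l = j
        · subst hlj
          have := (R.W3 hij hki hkj hu _).mul_left (R.W4 hij hki hkj hm t)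
          have e : dg i l u k * (dg i l u l)⁻¹ * t = -u * ((-1 : K)⁻¹ * t) := by
            simp [dg, hki, hkj, hij.symm]
          rwa [e]
        · have hik : i ≠ k := fun e => hki e.symm
          have hil : i ≠ l := fun e => hli e.symm
          have hjk : j ≠ k := fun e => hkj e.symm
          have hjl : j ≠ l := fun e => hlj e.symm
          have := (R.W5 hij hkl hik hil hjk hjl u t).mul_left (R.W5 hij hkl hik hil hjk hjl (-1) t)
          have e : dg i j u k * (dg i j u l)⁻¹ * t = t := by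
            simp [dg, hki, hkj, hli, hlj]
          rwa [e]

end dg

end Rel

end Cfsg.Agent.Lib.StN
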