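/-
Steinberg symbols over a finite field are trivial: `h(a) h(b) = h(ab)`.
-/
import Cfsg.Agent.Lib.StN.Basic

set_option autoImplicit false

namespace Cfsg.Agent.Lib.StN

section abstract

variable {K : Type*} [Field K]

/-- Two consecutive non-squares. -/
lemma exists_nonsq_pair [Finite K] (ν : K) (hν : ¬ IsSquare ν) :
    ∃ t : K, t ≠ 0 ∧ t ≠ 1 ∧ ¬ IsSquare t ∧ ¬ IsSquare (1 - t) := by
  classical
  by_contra hcon
  push Not at hcon
  haveI := Fintype.ofFinite K
  have hν0 : ν ≠ 0 := by
    rintro rfl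
    exact hν (IsSquare.zero)
  let S : Finset K := Finset.univ.filter (fun y => y ≠ 0 ∧ IsSquare y)
  have h1S : (1 : K) ∈ S := by simp [S]
  have hcard : S.card ≤ (S.erase 1).card := by
    apply Finset.card_le_card_of_injOn (fun y => 1 - ν * y)
    · intro y hy
      simp only [S, Finset.coe_filter, Finset.mem_univ, true_and, Set.mem_setOf_eq] at hy
      obtain ⟨hy0, hys⟩ := hy
      have hns : ¬ IsSquare (ν * y) := by
        intro hh
        apply hν
        have := hh.div hys
        rwa [mul_div_assoc, div_self hy0, mul_one] at this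
      have hn1 : ν * y ≠ 1 := by
        intro e
        apply hns
        rw [e]; exact IsSquare.one
      have hn0 : ν * y ≠ 0 := mul_ne_zero hν0 hy0
      have := hcon (ν * y) hn0 hn1 hns
      simp only [Finset.coe_erase, Set.mem_diff, Finset.mem_coe, S, Finset.mem_filter, Finset.mem_univ,
        true_and, Set.mem_singleton_iff]
      refine ⟨⟨?_, this⟩, ?_⟩
      · intro e; apply hn1; linear_combination -e
      · intro e; apply hn0; linear_combination -e
    · intro y _ z _ e
      have : ν * (y - z) = 0 := by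
        simp only at e
        linear_combination -e
      have h2 := (mul_eq_zero.1 this).resolve_left hν0
      linear_combination h2
  rw [Finset.card_erase_of_mem h1S] at hcard
  have : 0 < S.card := Finset.card_pos.2 ⟨1, h1S⟩
  omega

lemma symbol_trivial [Finite K] {A : Type*} [CommGroup A] (c : Kˣ → Kˣ → A)
    (hl : ∀ a b d, c (a * b) d = c a d * c b d) (hr : ∀ a b d, c a (b * d) = c a b * c a d)
    (hsq : ∀ u, c u u ^ 2 = 1)
    (hst : ∀ t s : Kˣ, (t : K) + s = 1 → c t s = 1) : ∀ a b, c a b = 1 := by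
  classical
  haveI := Fintype.ofFinite K
  obtain ⟨g, hg⟩ := IsCyclic.exists_monoid_generator (α := Kˣ)
  have hone_l : ∀ d, c 1 d = 1 := fun d => by
    have := hl 1 1 d
    rw [mul_one] at this
    exact mul_eq_left.1 this.symm |> fun h => h
  have hone_r : ∀ d, c d 1 = 1 := fun d => by
    have := hr d 1 1
    rw [mul_one] at this
    exact mul_eq_left.1 this.symm |> fun h => h
  have hpl : ∀ (i : ℕ) d, c (g ^ i) d = c g d ^ i := by
    intro i d
    induction i with
    | zero => simp [hone_l]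
    | succ n ih => rw [pow_succ, hl, ih, pow_succ]
  have hpr : ∀ (j : ℕ) a, c a (g ^ j) = c a g ^ j := by
    intro j a
    induction j with
    | zero => simp [hone_r]
    | succ n ih => rw [pow_succ, hr, ih, pow_succ]
  set e := c g g with he
  have he2 : e ^ 2 = 1 := hsq g
  have hgp : ∀ i j : ℕ, c (g ^ i) (g ^ j) = e ^ (i * j) := by
    intro i j
    rw [hpl, hpr, ← pow_mul, mul_comm]
  have hsuff : e = 1 → ∀ a b, c a b = 1 := by
    intro h1 a b
    obtain ⟨i, rfl⟩ := Submonoid.mem_powers_iff _ _ |>.1 (hg a)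
    obtain ⟨j, rfl⟩ := Submonoid.mem_powers_iff _ _ |>.1 (hg b)
    rw [hgp, h1, one_pow]
  apply hsuff
  by_cases hch : ringChar K = 2
  · -- every element is a square
    obtain ⟨y, hy⟩ := FiniteField.isSquare_of_char_two hch (g : K)
    have hy0 : y ≠ 0 := by
      rintro rfl
      exact g.ne_zero (by simpa using hy)
    let yu : Kˣ := Units.mk0 y hy0
    have hyu : g = yu * yu := by
      ext; simpa [yu] using hy
    obtain ⟨m, hm⟩ := Submonoid.mem_powers_iff _ _ |>.1 (hg yu)
    have : e = c yu g * c yu g := by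
      rw [he]
      conv_lhs => rw [hyu]
      rw [hl, ← hyu]
    rw [this, ← hm, hpl, ← he, ← pow_add, ← two_mul, pow_mul, he2, one_pow]
  · obtain ⟨ν, hν⟩ := FiniteField.exists_nonsquare hch
    obtain ⟨t, ht0, ht1, hts, hts'⟩ := exists_nonsq_pair ν hν
    have hs0 : 1 - t ≠ 0 := fun e => ht1 (by linear_combination -e)
    let tu : Kˣ := Units.mk0 t ht0
    let su : Kˣ := Units.mk0 (1 - t) hs0
    obtain ⟨i, hi⟩ := Submonoid.mem_powers_iff _ _ |>.1 (hg tu)
    obtain ⟨j, hj⟩ := Submonoid.mem_powers_iff _ _ |>.1 (hg su)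
    have hodd : ∀ (n : ℕ) (z : K), z ≠ 0 → ¬ IsSquare z → ((g ^ n : Kˣ) : K) = z → Odd n := by
      intro n z _ hz hn
      by_contra hne
      rw [Nat.not_odd_iff_even] at hne
      apply hz
      rw [← hn]
      obtain ⟨r, rfl⟩ := hne
      refine ⟨((g ^ r : Kˣ) : K), ?_⟩
      simp [pow_add]
    have hio : Odd i := hodd i t ht0 hts (by rw [hi]; rfl)
    have hjo : Odd j := hodd j (1 - t) hs0 hts' (by rw [hj]; rfl)
    have h0 := hst tu su (by simp [tu, su])
    rw [← hi, ← hj, hgp] at h0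
    obtain ⟨r, hr'⟩ := hio.mul hjo
    rw [hr', pow_succ, pow_mul, he2, one_pow, one_mul] at h0
    exact h0

end abstract

section abstractH

variable {K G : Type*} [Field K] [Finite K] [Group G]

lemma sym_core {A : Type*} [CommGroup A] (C : Kˣ → Kˣ → A)
    (hl : ∀ a b d, C (a * b) d = C a d * C b d)
    (hcoc : ∀ a b d, C a b * C (a * b) d = C b d * C a (b * d))
    (hE' : ∀ u v, C u v⁻¹ = C (u * u * v⁻¹) u⁻¹)
    (hS' : ∀ t s : Kˣ, (t : K) + s = 1 → C (-(t * t)) t⁻¹ * (C t (-1))⁻¹ * C t s = 1) :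
    ∀ a b, C a b = 1 := by
  have hr : ∀ a b d, C a (b * d) = C a b * C a d := by
    intro a b d
    have := hcoc a b d
    rw [hl] at this
    have h2 : C b d * C a (b * d) = C b d * (C a b * C a d) := by
      rw [← this]; simp only [mul_comm, mul_left_comm]
    exact mul_left_cancel h2
  have hC1r : ∀ a, C a 1 = 1 := fun a => by
    have := hr a 1 1
    rw [mul_one] at this
    exact mul_eq_left.1 this.symm
  have hC1l : ∀ a, C 1 a = 1 := fun a => by
    have := hl 1 1 a
    rw [mul_one] at this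
    exact mul_eq_left.1 this.symm
  have hinvr : ∀ a b, C a b⁻¹ = (C a b)⁻¹ := fun a b => by
    have := hr a b b⁻¹
    rw [mul_inv_cancel, hC1r] at this
    exact (inv_eq_of_mul_eq_one_right this.symm).symm
  have hinvl : ∀ a b, C a⁻¹ b = (C a b)⁻¹ := fun a b => by
    have := hl a a⁻¹ b
    rw [mul_inv_cancel, hC1l] at this
    exact (inv_eq_of_mul_eq_one_right this.symm).symm
  have hsq : ∀ u, C u u ^ 2 = 1 := by
    intro u
    have := hE' u 1
    rw [inv_one, hC1r, mul_one, hl, hinvr] at this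
    have h3 : (C u u)⁻¹ * (C u u)⁻¹ = 1 := this.symm
    rw [pow_two]
    rw [← mul_inv] at h3
    exact inv_eq_one.1 h3
  have hsq' : ∀ u, (C u u)⁻¹ * (C u u)⁻¹ = 1 := fun u => by
    rw [← mul_inv, ← pow_two, hsq, inv_one]
  have hanti : ∀ u v, (C u v)⁻¹ = C v u := by
    intro u v
    have := hE' u v
    rw [hinvr, hl, hl, hinvr, hinvr, hsq', one_mul, hinvl, inv_inv] at this
    exact this
  refine symbol_trivial C hl hr hsq fun t s hts => ?_
  have e5 := hS' t s hts
  have e6 : C (-(t * t)) t⁻¹ = C (-1) t⁻¹ := by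
    have : -(t * t) = (-1) * t * t := by simp
    rw [this, hl, hl, hinvr, hinvr, mul_assoc, hsq', mul_one]
  rw [e6, hanti, hinvr, inv_mul_cancel, one_mul] at e5
  exact e5

theorem H_mul (H : Kˣ → G) (h1 : H 1 = 1)
    (hc : ∀ a b : Kˣ, H a * H b * (H (a * b))⁻¹ ∈ Subgroup.center G)
    (hg : ∀ s : Kˣ, ∃ g : G, ∀ t : Kˣ, g * H t * g⁻¹ = H (s * t) * (H s)⁻¹)
    (hE : ∀ u v : Kˣ, H u * H v⁻¹ * (H u⁻¹)⁻¹ = H (u * u * v⁻¹))
    (hS : ∀ t s : Kˣ, (t : K) + s = 1 → H (-(t * t)) * H t⁻¹ * (H (-1))⁻¹ * H s = H (t * s)) :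
    ∀ a b, H a * H b = H (a * b) := by
  obtain ⟨C, hCc⟩ : ∃ C : Kˣ → Kˣ → Subgroup.center G, ∀ a b, ((C a b : Subgroup.center G) : G) = H a * H b * (H (a * b))⁻¹ :=
    ⟨fun a b => ⟨H a * H b * (H (a * b))⁻¹, hc a b⟩, fun _ _ => rfl⟩
  have key : ∀ a b, H a * H b = (C a b : G) * H (a * b) := fun a b => by rw [hCc]; group
  have hz : ∀ (z : Subgroup.center G) (g : G), g * (z : G) = z * g := fun z g =>
    (Subgroup.mem_center_iff.1 z.2 g)
  have hcomm : ∀ y z : Subgroup.center G, y * z = z * y := fun y z => Subtype.ext (hz z y)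
  have hconj : ∀ s, ∃ g : G, ∀ t, g * H t * g⁻¹ = ((C t s)⁻¹ : Subgroup.center G) * H t := by
    intro s
    obtain ⟨g, hg'⟩ := hg s
    refine ⟨g, fun t => ?_⟩
    rw [hg', InvMemClass.coe_inv, hCc, mul_comm s t]; group
  -- left multiplicativity
  have hl : ∀ a b d, C (a * b) d = C a d * C b d := by
    intro a b s
    obtain ⟨g, hg'⟩ := hconj s
    have e1 : g * (H a * H b) * g⁻¹ = ((C a s)⁻¹ * (C b s)⁻¹ : Subgroup.center G) * (H a * H b) := by
      have : g * (H a * H b) * g⁻¹ = (g * H a * g⁻¹) * (g * H b * g⁻¹) := by group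
      rw [this, hg', hg', mul_assoc, ← mul_assoc (H a), hz, Subgroup.coe_mul]
      simp only [mul_assoc]
    have e2 : g * (H a * H b) * g⁻¹ = ((C (a * b) s)⁻¹ : Subgroup.center G) * (H a * H b) := by
      rw [key a b]
      have : g * ((C a b : G) * H (a * b)) * g⁻¹ = (C a b : G) * (g * H (a * b) * g⁻¹) := by
        rw [← mul_assoc g, hz]; group
      rw [this, hg', ← mul_assoc, ← hz, mul_assoc]
    have e3 := e1.symm.trans e2
    have e4 := mul_right_cancel e3
    have e5 : (C a s)⁻¹ * (C b s)⁻¹ = (C (a * b) s)⁻¹ := Subtype.ext e4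
    have e6 := congrArg (fun y => y⁻¹) e5
    simp only [mul_inv_rev, inv_inv] at e6
    rw [← e6, hcomm]
  -- cocycle
  have hcoc : ∀ a b d, C a b * C (a * b) d = C b d * C a (b * d) := by
    intro a b d
    apply Subtype.ext
    apply mul_right_cancel (b := H (a * b * d))
    rw [Subgroup.coe_mul, Subgroup.coe_mul]
    have e1 : (H a * H b) * H d = (C a b : G) * (C (a * b) d : G) * H (a * b * d) := by
      rw [key a b, mul_assoc (C a b : G), key (a * b) d, mul_assoc (C a b : G)]
    have e2 : H a * (H b * H d) = (C b d : G) * (C a (b * d) : G) * H (a * b * d) := by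
      rw [key b d, ← mul_assoc, hz, mul_assoc, key a (b * d), mul_assoc a b d, mul_assoc (C b d : G)]
    rw [← e1, ← e2, mul_assoc]
  -- from E
  have hE' : ∀ u v, C u v⁻¹ = C (u * u * v⁻¹) u⁻¹ := by
    intro u v
    have e := hE u v
    have e1 : H u * H v⁻¹ = (C u v⁻¹ : G) * H (u * v⁻¹) := key _ _
    have e2 : H (u * u * v⁻¹) * H u⁻¹ = (C (u * u * v⁻¹) u⁻¹ : G) * H (u * v⁻¹) := by
      rw [key]; congr 2; ext; simp only [Units.val_mul, Units.val_inv_eq_inv_val]; field_simp
    have e3 : H u * H v⁻¹ = H (u * u * v⁻¹) * H u⁻¹ := by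
      rw [← e]; group
    rw [e1, e2] at e3
    exact Subtype.ext (mul_right_cancel e3)
  have hS' : ∀ t s : Kˣ, (t : K) + s = 1 → C (-(t * t)) t⁻¹ * (C t (-1))⁻¹ * C t s = 1 := by
    intro t s hts
    have e := hS t s hts
    have e1 : H (-(t * t)) * H t⁻¹ = (C (-(t * t)) t⁻¹ : G) * H (-t) := by
      rw [key]; congr 2; ext; simp only [Units.val_mul, Units.val_inv_eq_inv_val, Units.val_neg]; field_simp
    have e2 : H t * H (-1) = (C t (-1) : G) * H (-t) := by
      rw [key]; simp
    have e3 : H (-t) * (H (-1))⁻¹ = ((C t (-1))⁻¹ : Subgroup.center G) * H t := by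
      rw [InvMemClass.coe_inv, eq_inv_mul_iff_mul_eq, ← mul_assoc, mul_inv_eq_iff_eq_mul]
      exact e2.symm
    rw [e1, mul_assoc (C (-(t * t)) t⁻¹ : G), e3] at e
    have e4 : (C (-(t * t)) t⁻¹ : G) * ((C t (-1))⁻¹ : Subgroup.center G) * (C t s : G) * H (t * s) = H (t * s) := by
      calc _ = (C (-(t * t)) t⁻¹ : G) * (((C t (-1))⁻¹ : Subgroup.center G) * ((C t s : G) * H (t * s))) := by
            simp only [mul_assoc]
        _ = (C (-(t * t)) t⁻¹ : G) * (((C t (-1))⁻¹ : Subgroup.center G) * (H t * H s)) := by rw [key t s]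
        _ = (C (-(t * t)) t⁻¹ : G) * (((C t (-1))⁻¹ : Subgroup.center G) * H t) * H s := by simp only [mul_assoc]
        _ = _ := e
    exact Subtype.ext (mul_eq_right.1 e4)
  letI : CommGroup (Subgroup.center G) := { (inferInstance : Group (Subgroup.center G)) with mul_comm := hcomm }
  have hfin := sym_core C hl hcoc hE' hS'
  intro a b
  rw [key, hfin, OneMemClass.coe_one, one_mul]

end abstractH

namespace Rel

variable {ι K G : Type*} [Field K] [Group G] {x : ι → ι → K → G} (R : Rel x)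
include R
variable {i j k : ι}

/-- The key relation among Weyl elements. -/
lemma w_star (hij : i ≠ j) (hki : k ≠ i) (hkj : k ≠ j) {t s : K} (ht : t ≠ 0) (hs : s ≠ 0) (hts : t + s = 1) :
    w x i j (-(t * t)) * w x i j t * w x i j s = w x i j (t * s) := by
  have hq : -(t * t) ≠ 0 := by simp [ht]
  have hp : t * s ≠ 0 := mul_ne_zero ht hs
  have hsE : s = 1 - t := by linear_combination hts
  set a := w x i j (-(t * t)) with ha
  set b := w x i j t with hb
  set c := w x i j s with hc
  set p := t * s with hpdef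
  set q := -(t * t) with hqdef
  have yd : ∀ r : K, x j i (-r⁻¹) = x i j (-r) * w x i j r * x i j (-r) := by
    intro r
    unfold w
    have e1 : x i j (-r) * x i j r = 1 := by rw [R.add hij, neg_add_cancel, R.x_zero hij]
    have e2 : x i j r * x i j (-r) = 1 := by rw [R.add hij, add_neg_cancel, R.x_zero hij]
    have e3 : x i j (-r) * (x i j r * x j i (-r⁻¹) * x i j r) * x i j (-r) =
        (x i j (-r) * x i j r) * x j i (-r⁻¹) * (x i j r * x i j (-r)) := by simp only [mul_assoc]
    rw [e3, e1, e2, one_mul, mul_one]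
  have f1 : x i j (-p) = x i j (-t) * x i j (-q) := by
    rw [R.add hij]; congr 1; rw [hpdef, hqdef, hsE]; ring
  have f2 : x i j (-q) * b = b * x j i (-1) := by
    have := (R.W7 hij hki hkj ht (-1)).eq
    have e : -(t * t) * -1 = -q := by rw [hqdef]; ring
    rw [e] at this
    exact this.symm
  have f3 : x j i (-1) * c = c * x i j (s * s) := by
    have := (R.W6 hij hki hkj hs (s * s)).eq
    have e : -(s⁻¹ * s⁻¹) * (s * s) = -1 := by field_simp
    rw [e] at this
    exact this.symm
  have f4 : x i j (s * s) * x i j (-s) = x i j (-p) := by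
    rw [R.add hij]; congr 1; rw [hpdef, hsE]; ring
  have f5 : b * x i j (-1) = x j i (-q⁻¹) * b := by
    have := (R.W6 hij hki hkj ht (-1)).eq
    have e : -(t⁻¹ * t⁻¹) * -1 = -q⁻¹ := by rw [hqdef]; field_simp
    rwa [e] at this
  have f6 := yd q
  have f7 : x i j (-1) = x i j (-t) * x i j (-s) := by
    rw [R.add hij]; congr 1; linear_combination hts
  have f8 := yd t
  have f8' := yd s
  have f8'' := yd p
  have f9 : x j i (-t⁻¹) * x j i (-s⁻¹) = x j i (-p⁻¹) := by
    rw [R.add hij.symm]; congr 1; rw [hpdef]; field_simp; linear_combination -hts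
  have main : x i j (-p) * (a * b * c) * x i j (-p) = x i j (-p) * w x i j p * x i j (-p) := by
    calc x i j (-p) * (a * b * c) * x i j (-p)
        = x i j (-t) * x i j (-q) * a * b * (c * x i j (s * s)) * x i j (-s) := by
          have e0 : x i j (-p) * (a * b * c) * x i j (-p) = (x i j (-t) * x i j (-q)) * (a * b * c) * (x i j (s * s) * x i j (-s)) := by
            rw [f4, ← f1]
          rw [e0]; simp only [mul_assoc]
      _ = x i j (-t) * x i j (-q) * a * (b * x j i (-1)) * c * x i j (-s) := by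
          rw [← f3]; simp only [mul_assoc]
      _ = x i j (-t) * (x i j (-q) * a * x i j (-q)) * b * c * x i j (-s) := by
          rw [← f2]; simp only [mul_assoc]
      _ = x i j (-t) * (x j i (-q⁻¹) * b) * c * x i j (-s) := by
          rw [← f6]; simp only [mul_assoc]
      _ = (x i j (-t) * b * x i j (-t)) * (x i j (-s) * c * x i j (-s)) := by
          rw [← f5, f7]; simp only [mul_assoc]
      _ = x j i (-p⁻¹) := by rw [← f8, ← f8', f9]
      _ = _ := f8''
  have := mul_left_cancel (mul_right_cancel main)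
  exact this


section symb
variable [DecidableEq ι]

/-- Weyl elements conjugated by `h_jk(s⁻¹)`. -/
lemma h_conj_w (h3 : ∀ a b : ι, ∃ c, c ≠ a ∧ c ≠ b) (hij : i ≠ j) (hki : k ≠ i) (hkj : k ≠ j) {s : K} (hs : s ≠ 0) (t : K) :
    SemiconjBy (h x j k s⁻¹) (w x i j t) (w x i j (s * t)) := by
  have hs' : s⁻¹ ≠ 0 := inv_ne_zero hs
  refine w_sc (χ := s) (fun t => ?_) (fun t => ?_)
  · have := R.h_act h3 hkj.symm hs' hij t
    have e : dg j k s⁻¹ i * (dg j k s⁻¹ j)⁻¹ * t = s * t := by
      simp [dg, hij, hki.symm]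
    rwa [e] at this
  · have := R.h_act h3 hkj.symm hs' hij.symm t
    have e : dg j k s⁻¹ j * (dg j k s⁻¹ i)⁻¹ * t = s⁻¹ * t := by
      simp [dg, hij, hki.symm]
    rwa [e] at this

/-- The symbol relation: `h(a) h(b) = h(ab)` over a finite field. -/
theorem h_mul [Finite K] (h3 : ∀ a b : ι, ∃ c, c ≠ a ∧ c ≠ b)
    (hgen : Subgroup.closure {g : G | ∃ (a b : ι) (t : K), a ≠ b ∧ g = x a b t} = ⊤)
    (hij : i ≠ j) {a b : K} (ha : a ≠ 0) (hb : b ≠ 0) :
    h x i j a * h x i j b = h x i j (a * b) := by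
  obtain ⟨k, hki, hkj⟩ := h3 i j
  have hm : (-1 : K) ≠ 0 := by simp
  have hone : (1 : K) ≠ 0 := one_ne_zero
  let κ := w x i j (1 : K)
  have hκinv : w x i j (-1 : K) = κ⁻¹ := R.w_one_inv hij
  have hwh : ∀ u : K, w x i j u = h x i j u * κ := fun u => R.h_eq hij u
  -- conjugation by κ
  have hκh : ∀ y : K, y ≠ 0 → κ * h x i j y = h x i j y⁻¹ * κ := by
    intro y hy
    have c1 := (R.w_conj hij hki hkj hone hy).eq
    have c2 := (R.w_conj hij hki hkj hone hm).eq
    have e2 : (1 : K) * 1 * (-1 : K)⁻¹ = -1 := by simp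
    have e1 : (1 : K) * 1 * y⁻¹ = y⁻¹ := by simp
    rw [e2] at c2
    rw [e1] at c1
    unfold h
    change κ * (w x i j y * w x i j (-1)) = _
    change κ * w x i j y = _ * κ at c1
    change κ * w x i j (-1) = _ * κ at c2
    rw [← mul_assoc, c1, mul_assoc, c2, mul_assoc]
  have hκκ : κ * κ = (h x i j (-1 : K))⁻¹ := by
    unfold h
    rw [hκinv, mul_inv_rev, inv_inv]
  have key := H_mul (K := K) (G := G) (fun u : Kˣ => h x i j (u : K)) (by simpa using R.h_one hij) ?_ ?_ ?_ ?_
    (Units.mk0 a ha) (Units.mk0 b hb)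
  · simpa using key
  · -- central
    intro u v
    have hcomm_gen : ∀ (p q : ι) (t : K), p ≠ q →
        x p q t * (h x i j u * h x i j v * (h x i j ((u * v : Kˣ) : K))⁻¹) =
          (h x i j u * h x i j v * (h x i j ((u * v : Kˣ) : K))⁻¹) * x p q t := by
      intro p q t hpq
      have e0 : ∀ y : K, y ≠ 0 → dg i j y p * (dg i j y q)⁻¹ ≠ 0 := fun y hy =>
        mul_ne_zero (dg_ne hij hy p) (inv_ne_zero (dg_ne hij hy q))
      have ha1 := R.h_act h3 hij u.ne_zero hpq
      have ha2 := R.h_act h3 hij v.ne_zero hpq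
      have ha3 := R.h_act h3 hij (u * v).ne_zero hpq
      have e1 : ∀ s, dg i j (u : K) p * (dg i j (u : K) q)⁻¹ * (dg i j (v : K) p * (dg i j (v : K) q)⁻¹ * s) =
          dg i j ((u * v : Kˣ) : K) p * (dg i j ((u * v : Kˣ) : K) q)⁻¹ * s := by
        intro s
        rw [Units.val_mul, dg_mul hij, dg_mul hij, mul_inv]
        ring
      set χ := dg i j ((u * v : Kˣ) : K) p * (dg i j ((u * v : Kˣ) : K) q)⁻¹ with hχ
      have hχ0 : χ ≠ 0 := e0 _ (u * v).ne_zero
      have s1 : SemiconjBy (h x i j u * h x i j v) (x p q (χ⁻¹ * t)) (x p q t) := by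
        have := (ha1 _).mul_left (ha2 (χ⁻¹ * t))
        rwa [e1, mul_inv_cancel_left₀ hχ0] at this
      have s2 : SemiconjBy (h x i j ((u * v : Kˣ) : K)) (x p q (χ⁻¹ * t)) (x p q t) := by
        have := ha3 (χ⁻¹ * t)
        rwa [mul_inv_cancel_left₀ hχ0] at this
      have s3 := s1.mul_left s2.inv_symm_left
      exact (s3).eq.symm
    have hmem : ∀ g : G, g * (h x i j u * h x i j v * (h x i j ((u * v : Kˣ) : K))⁻¹) =
        (h x i j u * h x i j v * (h x i j ((u * v : Kˣ) : K))⁻¹) * g := by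
      intro g
      have hg : g ∈ Subgroup.centralizer ({h x i j u * h x i j v * (h x i j ((u * v : Kˣ) : K))⁻¹} : Set G) := by
        have hle : Subgroup.closure {g : G | ∃ (a b : ι) (t : K), a ≠ b ∧ g = x a b t} ≤
            Subgroup.centralizer ({h x i j u * h x i j v * (h x i j ((u * v : Kˣ) : K))⁻¹} : Set G) := by
          rw [Subgroup.closure_le]
          rintro _ ⟨p, q, t, hpq, rfl⟩
          simp only [SetLike.mem_coe, Subgroup.mem_centralizer_iff, Set.mem_singleton_iff, forall_eq]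
          exact (hcomm_gen p q t hpq).symm
        exact hle (hgen ▸ Subgroup.mem_top g)
      simp only [Subgroup.mem_centralizer_iff, Set.mem_singleton_iff, forall_eq] at hg
      exact hg.symm
    exact Subgroup.mem_center_iff.2 hmem
  · -- hg
    intro s
    refine ⟨h x j k ((s : K)⁻¹), fun t => ?_⟩
    have c1 := (R.h_conj_w h3 hij hki hkj s.ne_zero (t : K)).eq
    have c2 := (R.h_conj_w h3 hij hki hkj s.ne_zero (-1 : K)).eq
    have e : (s : K) * -1 = -(s : K) := by ring
    rw [e, ← R.w_inv hij (s : K)] at c2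
    rw [mul_inv_eq_iff_eq_mul, Units.val_mul]
    generalize h x j k ((s : K)⁻¹) = g at c1 c2 ⊢
    have e5 : h x i j ((s : K) * t) * (h x i j (s : K))⁻¹ = w x i j ((s : K) * t) * (w x i j (s : K))⁻¹ := by
      unfold h; group
    rw [e5]
    calc g * h x i j (t : K) = (g * w x i j (t : K)) * w x i j (-1) := by unfold h; group
      _ = w x i j ((s : K) * t) * (g * w x i j (-1)) := by rw [c1]; group
      _ = _ := by rw [c2]; group
  · intro u v
    have c := (R.w_conj hij hki hkj u.ne_zero v.ne_zero).eq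
    rw [hwh (u : K), hwh (v : K), hwh ((u : K) * u * (v : K)⁻¹)] at c
    have e1 : h x i j (u : K) * κ * (h x i j (v : K) * κ) = h x i j (u : K) * (κ * h x i j (v : K)) * κ := by
      simp only [mul_assoc]
    have e2 : h x i j ((u : K) * u * (v : K)⁻¹) * κ * (h x i j (u : K) * κ) =
        h x i j ((u : K) * u * (v : K)⁻¹) * (κ * h x i j (u : K)) * κ := by
      simp only [mul_assoc]
    rw [e1, e2, hκh _ v.ne_zero, hκh _ u.ne_zero] at c
    have c' := mul_right_cancel c
    have e3 : h x i j (u : K) * (h x i j (v : K)⁻¹ * κ) = (h x i j (u : K) * h x i j (v : K)⁻¹) * κ := by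
      simp only [mul_assoc]
    have e4 : h x i j ((u : K) * u * (v : K)⁻¹) * (h x i j (u : K)⁻¹ * κ) =
        (h x i j ((u : K) * u * (v : K)⁻¹) * h x i j (u : K)⁻¹) * κ := by
      simp only [mul_assoc]
    rw [e3, e4] at c'
    have c'' := mul_right_cancel c'
    simp only [Units.val_mul, Units.val_inv_eq_inv_val]
    rw [mul_inv_eq_iff_eq_mul]
    exact c''
  · intro t s hts
    have c := R.w_star hij hki hkj t.ne_zero s.ne_zero hts
    rw [hwh (-((t : K) * t)), hwh (t : K), hwh (s : K), hwh ((t : K) * s)] at c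
    have e1 : h x i j (-((t : K) * t)) * κ * (h x i j (t : K) * κ) * (h x i j (s : K) * κ) =
        (h x i j (-((t : K) * t)) * (κ * h x i j (t : K)) * κ * h x i j (s : K)) * κ := by
      simp only [mul_assoc]
    rw [e1, hκh _ t.ne_zero] at c
    have c' := mul_right_cancel c
    have e2 : h x i j (-((t : K) * t)) * (h x i j (t : K)⁻¹ * κ) * κ * h x i j (s : K) =
        h x i j (-((t : K) * t)) * h x i j (t : K)⁻¹ * (κ * κ) * h x i j (s : K) := by
      simp only [mul_assoc]
    rw [e2, hκκ] at c'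
    simp only [Units.val_mul, Units.val_inv_eq_inv_val, Units.val_neg, Units.val_one]
    exact c'

end symb

end Rel

end Cfsg.Agent.Lib.StN
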