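/-
Double coset cells for the Steinberg relations.
-/
import Cfsg.Agent.Lib.StN.Sym

set_option autoImplicit false

namespace Cfsg.Agent.Lib.StN

variable {ι K G : Type*} [Field K] [Group G] {x : ι → ι → K → G}

/-- The subgroup generated by the root elements `x_ij(t)` with `P i j`. -/
def Xs (x : ι → ι → K → G) (P : ι → ι → Prop) : Subgroup G :=
  Subgroup.closure {g | ∃ (i j : ι) (t : K), i ≠ j ∧ P i j ∧ g = x i j t}

section Xs
variable {P : ι → ι → Prop} {i j : ι}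

lemma x_mem_Xs (hij : i ≠ j) (hP : P i j) (t : K) : x i j t ∈ Xs x P :=
  Subgroup.subset_closure ⟨i, j, t, hij, hP, rfl⟩

lemma Xs_le {H : Subgroup G} (hh : ∀ i j t, i ≠ j → P i j → x i j t ∈ H) : Xs x P ≤ H := by
  rw [Xs, Subgroup.closure_le]
  rintro _ ⟨i, j, t, hij, hP, rfl⟩
  exact hh i j t hij hP

lemma Xs_conj (g : G) {H : Subgroup G} (hh : ∀ i j t, i ≠ j → P i j → g * x i j t * g⁻¹ ∈ H) :
    ∀ τ ∈ Xs x P, g * τ * g⁻¹ ∈ H := by
  intro τ hτ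
  have : Xs x P ≤ H.comap (MulAut.conj g).toMonoidHom := Xs_le (fun i j t hij hP => by
    simpa using hh i j t hij hP)
  simpa using this hτ

lemma Xs_ind (R : Rel x) (p : G → Prop) (h1 : p 1)
    (hm : ∀ i j t, i ≠ j → P i j → ∀ y, p y → p (x i j t * y)) : ∀ g ∈ Xs x P, p g := by
  intro g hg
  refine Subgroup.closure_induction_left (p := fun g _ => p g) h1 ?_ ?_ hg
  · rintro _ ⟨i, j, t, hij, hP, rfl⟩ y _ hy
    exact hm i j t hij hP y hy
  · rintro _ ⟨i, j, t, hij, hP, rfl⟩ y _ hy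
    rw [R.x_inv hij]
    exact hm i j (-t) hij hP y hy

end Xs

section norm
variable [DecidableEq ι]

lemma h_norm (R : Rel x) (h3 : ∀ a b : ι, ∃ c, c ≠ a ∧ c ≠ b) {a b : ι} (hab : a ≠ b) {r : K} (hr : r ≠ 0)
    {P : ι → ι → Prop} : ∀ τ ∈ Xs x P, h x a b r * τ * (h x a b r)⁻¹ ∈ Xs x P := by
  refine Xs_conj _ fun i j t hij hP => ?_
  rw [(R.h_act h3 hab hr hij t).eq, mul_inv_cancel_right]
  exact x_mem_Xs hij hP _

/-- Moving a root element past `h`. -/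
lemma x_h (R : Rel x) (h3 : ∀ a b : ι, ∃ c, c ≠ a ∧ c ≠ b) {a b : ι} (hab : a ≠ b) {r : K} (hr : r ≠ 0)
    {i j : ι} (hij : i ≠ j) (t : K) :
    ∃ t', x i j t * h x a b r = h x a b r * x i j t' := by
  have hχ : Rel.dg a b r i * (Rel.dg a b r j)⁻¹ ≠ 0 :=
    mul_ne_zero (Rel.dg_ne hab hr i) (inv_ne_zero (Rel.dg_ne hab hr j))
  have := (R.h_act h3 hab hr hij ((Rel.dg a b r i * (Rel.dg a b r j)⁻¹)⁻¹ * t)).eq
  rw [mul_inv_cancel_left₀ hχ] at this
  exact ⟨_, this.symm⟩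

lemma h_norm' (R : Rel x) (h3 : ∀ a b : ι, ∃ c, c ≠ a ∧ c ≠ b) {a b : ι} (hab : a ≠ b) {r : K} (hr : r ≠ 0)
    {P : ι → ι → Prop} : ∀ τ ∈ Xs x P, (h x a b r)⁻¹ * τ * h x a b r ∈ Xs x P := by
  intro τ hτ
  have := Xs_conj (x := x) (P := P) (H := Xs x P) (h x a b r)⁻¹ (fun i j t hij hP => ?_) τ hτ
  · simpa using this
  · obtain ⟨t', ht'⟩ := x_h R h3 hab hr hij t
    rw [inv_inv, mul_assoc, ht', inv_mul_cancel_left]
    exact x_mem_Xs hij hP _

end norm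

/-- The two cells. -/
def Cell (x : ι → ι → K → G) (T : Subgroup G) (a b : ι) (g : G) : Prop :=
  (∃ r : K, r ≠ 0 ∧ ∃ τ ∈ T, g = h x a b r * τ) ∨
    (∃ r : K, r ≠ 0 ∧ ∃ τ₁ ∈ T, ∃ τ₂ ∈ T, g = τ₁ * (h x a b r * w x a b 1) * τ₂)

/-- The context for the cell computations. -/
structure Ctx (x : ι → ι → K → G) (T : Subgroup G) (a b : ι) : Prop where
  R : Rel x
  h3 : ∀ p q : ι, ∃ c, c ≠ p ∧ c ≠ q
  hab : a ≠ b
  hm : ∀ {r s : K}, r ≠ 0 → s ≠ 0 → h x a b r * h x a b s = h x a b (r * s)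
  hT1 : ∀ t, x a b t ∈ T
  hTn : ∀ {r : K}, r ≠ 0 → ∀ τ ∈ T, h x a b r * τ * (h x a b r)⁻¹ ∈ T

namespace Ctx

variable {T : Subgroup G} {a b : ι} (C : Ctx x T a b)
include C

lemma hinv {r : K} (hr : r ≠ 0) : (h x a b r)⁻¹ = h x a b r⁻¹ := by
  rw [inv_eq_iff_mul_eq_one, C.hm hr (inv_ne_zero hr), mul_inv_cancel₀ hr, C.R.h_one C.hab]

lemma hTn' {r : K} (hr : r ≠ 0) {τ : G} (hτ : τ ∈ T) : (h x a b r)⁻¹ * τ * h x a b r ∈ T := by
  have := C.hTn (inv_ne_zero hr) τ hτ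
  rwa [← C.hinv hr, inv_inv] at this

lemma cell_T {τ₀ g : G} (hτ₀ : τ₀ ∈ T) (hg : Cell x T a b g) : Cell x T a b (τ₀ * g) := by
  rcases hg with ⟨r, hr, τ, hτ, rfl⟩ | ⟨r, hr, τ₁, h1, τ₂, h2, rfl⟩
  · left
    exact ⟨r, hr, (h x a b r)⁻¹ * τ₀ * h x a b r * τ, mul_mem (C.hTn' hr hτ₀) hτ, by group⟩
  · right
    exact ⟨r, hr, τ₀ * τ₁, mul_mem hτ₀ h1, τ₂, h2, by group⟩

lemma cell_right {τ₀ g : G} (hg : Cell x T a b g) (hτ₀ : τ₀ ∈ T) : Cell x T a b (g * τ₀) := by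
  rcases hg with ⟨r, hr, τ, hτ, rfl⟩ | ⟨r, hr, τ₁, h1, τ₂, h2, rfl⟩
  · left
    exact ⟨r, hr, τ * τ₀, mul_mem hτ hτ₀, by group⟩
  · right
    exact ⟨r, hr, τ₁, h1, τ₂ * τ₀, mul_mem h2 hτ₀, by group⟩

lemma cell_h {s : K} {g : G} (hs : s ≠ 0) (hg : Cell x T a b g) : Cell x T a b (h x a b s * g) := by
  rcases hg with ⟨r, hr, τ, hτ, rfl⟩ | ⟨r, hr, τ₁, h1, τ₂, h2, rfl⟩
  · left
    exact ⟨s * r, mul_ne_zero hs hr, τ, hτ, by rw [← C.hm hs hr, mul_assoc]⟩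
  · right
    refine ⟨s * r, mul_ne_zero hs hr, h x a b s * τ₁ * (h x a b s)⁻¹, C.hTn hs _ h1, τ₂, h2, ?_⟩
    rw [← C.hm hs hr]; group

lemma cell_one : Cell x T a b 1 := by
  left
  exact ⟨1, one_ne_zero, 1, one_mem _, by rw [C.R.h_one C.hab, one_mul]⟩

omit C in
lemma hbig {T : Subgroup G} {a b : ι} {r : K} (hr : r ≠ 0) : Cell x T a b (h x a b r * w x a b 1) := by
  right
  exact ⟨r, hr, 1, one_mem _, 1, one_mem _, by group⟩

/-- `x_ba(t)` for `t ≠ 0`. -/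
lemma x_ba_eq {t : K} (ht : t ≠ 0) :
    x b a t = x a b t⁻¹ * (h x a b (-t⁻¹) * w x a b 1) * x a b t⁻¹ := by
  rw [← C.R.h_eq C.hab]
  unfold w
  have e : -(-t⁻¹)⁻¹ = t := by simp
  rw [e]
  have e1 : x a b t⁻¹ * x a b (-t⁻¹) = 1 := by rw [C.R.add C.hab, add_neg_cancel, C.R.x_zero C.hab]
  have e2 : x a b (-t⁻¹) * x a b t⁻¹ = 1 := by rw [C.R.add C.hab, neg_add_cancel, C.R.x_zero C.hab]
  have e3 : x a b t⁻¹ * (x a b (-t⁻¹) * x b a t * x a b (-t⁻¹)) * x a b t⁻¹ =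
      (x a b t⁻¹ * x a b (-t⁻¹)) * x b a t * (x a b (-t⁻¹) * x a b t⁻¹) := by simp only [mul_assoc]
  rw [e3, e1, e2, one_mul, mul_one]

lemma cell_x_ba (t : K) : Cell x T a b (x b a t) := by
  by_cases ht : t = 0
  · subst ht
    rw [C.R.x_zero C.hab.symm]
    exact C.cell_one
  · rw [C.x_ba_eq ht]
    exact C.cell_right (C.cell_T (C.hT1 _) (hbig (by simpa using ht))) (C.hT1 _)

/-- Moving `x_ba` across `ŵ`. -/
lemma x_ba_w (t : K) : x b a t * w x a b 1 = w x a b 1 * x a b (-t) := by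
  obtain ⟨k, hka, hkb⟩ := C.h3 a b
  have hm : (-1 : K) ≠ 0 := by simp
  have := (C.R.W7 C.hab hka hkb hm t).eq
  rw [C.R.w_one_inv C.hab] at this
  have e : -((-1 : K) * -1) * t = -t := by ring
  rw [e] at this
  have e2 : x b a t = w x a b 1 * x a b (-t) * (w x a b 1)⁻¹ := by
    rw [mul_assoc, ← this]; group
  rw [e2]; group

lemma star {s : K} (hs : s ≠ 0) :
    x a b s * w x a b 1 = x b a s⁻¹ * h x a b (-s) * x a b (-s⁻¹) := by
  obtain ⟨k, hka, hkb⟩ := C.h3 a b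
  have e0 := C.R.w_swap C.hab hka hkb hs
  have e1 : x b a (-s⁻¹) * x a b s * x b a (-s⁻¹) = w x a b s := by
    rw [← e0]; unfold w
    have e : -(-s⁻¹)⁻¹ = s := by simp
    rw [e]
  have e2 : x b a s⁻¹ * x b a (-s⁻¹) = 1 := by rw [C.R.add C.hab.symm, add_neg_cancel, C.R.x_zero C.hab.symm]
  have e3 : x b a (-s⁻¹) * x b a s⁻¹ = 1 := by rw [C.R.add C.hab.symm, neg_add_cancel, C.R.x_zero C.hab.symm]
  have e4 : x a b s = x b a s⁻¹ * w x a b s * x b a s⁻¹ := by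
    rw [← e1]
    have : x b a s⁻¹ * (x b a (-s⁻¹) * x a b s * x b a (-s⁻¹)) * x b a s⁻¹ =
      (x b a s⁻¹ * x b a (-s⁻¹)) * x a b s * (x b a (-s⁻¹) * x b a s⁻¹) := by simp only [mul_assoc]
    rw [this, e2, e3, one_mul, mul_one]
  have hm : (-1 : K) ≠ 0 := by simp
  have e5 : w x a b s * w x a b 1 = h x a b (-s) := by
    have e6 : w x a b (1 : K) * w x a b 1 = h x a b (-1 : K) := by
      have h1 : (h x a b (-1 : K))⁻¹ = h x a b (-1 : K) := by rw [C.hinv hm]; simp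
      rw [← h1]; unfold h
      rw [C.R.w_one_inv C.hab, mul_inv_rev, inv_inv]
    rw [C.R.h_eq C.hab s, mul_assoc, e6, C.hm hs hm]
    congr 1; ring
  calc x a b s * w x a b 1 = x b a s⁻¹ * w x a b s * (x b a s⁻¹ * w x a b 1) := by
        conv_lhs => rw [e4]
        simp only [mul_assoc]
    _ = x b a s⁻¹ * (w x a b s * w x a b 1) * x a b (-s⁻¹) := by
        rw [C.x_ba_w]; simp only [mul_assoc]
    _ = _ := by rw [e5]

/-- The key lemma on the column. -/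
lemma F6 (Col : Set G) (c1 : ∀ ξ ∈ Col, ∀ t, ξ * x b a t ∈ Col)
    (c2 : ∀ ξ ∈ Col, ∀ {r : K}, r ≠ 0 → (h x a b r)⁻¹ * ξ * h x a b r ∈ Col)
    (c3 : ∀ ξ ∈ Col, (w x a b 1)⁻¹ * ξ * w x a b 1 ∈ T)
    (c4 : ∀ ξ ∈ Col, Cell x T a b ξ) {ξ τ : G} (hξ : ξ ∈ Col) (s : K) (hτ : τ ∈ T) :
    Cell x T a b (ξ * (x a b s * w x a b 1 * τ)) := by
  by_cases hs : s = 0
  · subst hs
    rw [C.R.x_zero C.hab]
    right
    refine ⟨1, one_ne_zero, 1, one_mem _, (w x a b 1)⁻¹ * ξ * w x a b 1 * τ, mul_mem (c3 ξ hξ) hτ, ?_⟩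
    rw [C.R.h_one C.hab]; group
  · have hs' : -s ≠ 0 := neg_ne_zero.2 hs
    rw [C.star hs]
    set ξ'' := (h x a b (-s))⁻¹ * (ξ * x b a s⁻¹) * h x a b (-s) with hξ''
    have h1 : ξ'' ∈ Col := c2 _ (c1 ξ hξ _) hs'
    have h2 : Cell x T a b (h x a b (-s) * (ξ'' * (x a b (-s⁻¹) * τ))) :=
      C.cell_h hs' (C.cell_right (c4 _ h1) (mul_mem (C.hT1 _) hτ))
    convert h2 using 1
    rw [hξ'']; group


section dec
variable [DecidableEq ι]

lemma x_ba_cell1 (t : K) {r : K} (hr : r ≠ 0) {τ : G} (hτ : τ ∈ T) :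
    Cell x T a b (x b a t * (h x a b r * τ)) := by
  obtain ⟨t', ht'⟩ := x_h C.R C.h3 C.hab hr C.hab.symm t
  have : x b a t * (h x a b r * τ) = h x a b r * (x b a t' * τ) := by
    rw [← mul_assoc, ht', mul_assoc]
  rw [this]
  exact C.cell_h hr (C.cell_right (C.cell_x_ba t') hτ)

/-- `F6` for a pure `x_ba`. -/
lemma F6a (t s : K) {τ : G} (hτ : τ ∈ T) : Cell x T a b (x b a t * (x a b s * w x a b 1 * τ)) := by
  refine C.F6 {g | ∃ t, g = x b a t} ?_ ?_ ?_ ?_ ⟨t, rfl⟩ s hτ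
  · rintro _ ⟨t, rfl⟩ t'
    exact ⟨t + t', C.R.add C.hab.symm _ _⟩
  · rintro _ ⟨t, rfl⟩ r hr
    obtain ⟨t', ht'⟩ := x_h C.R C.h3 C.hab hr C.hab.symm t
    exact ⟨t', by rw [mul_assoc, ht', inv_mul_cancel_left]⟩
  · rintro _ ⟨t, rfl⟩
    rw [mul_assoc, C.x_ba_w, inv_mul_cancel_left]
    exact C.hT1 _
  · rintro _ ⟨t, rfl⟩
    exact C.cell_x_ba t

/-- The product `x_ca(y) x_ba(t)` lies in the cells. -/
lemma T4 {c : ι} (hca : c ≠ a) (hcb : c ≠ b) (hT2 : ∀ u, x c b u ∈ T) (hT3 : ∀ u, x b c u ∈ T) (y t : K) :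
    Cell x T a b (x c a y * x b a t) := by
  have hba : b ≠ a := C.hab.symm
  have key : ∀ y t : K, t ≠ 0 → Cell x T a b (x c a y * x b a t) := by
    intro y t ht
    have e0 := (C.R.sc1 hcb hba hca (y * t⁻¹) t).eq
    have e1 : y * t⁻¹ * t = y := by field_simp
    rw [e1] at e0
    have e2 : x c a y * x b a t = x c b (y * t⁻¹) * (x b a t * x c b (-(y * t⁻¹))) := by
      rw [← mul_assoc, e0, mul_assoc (x c a y * x b a t), C.R.add hcb, add_neg_cancel, C.R.x_zero hcb, mul_one]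
    rw [e2]
    exact C.cell_T (hT2 _) (C.cell_right (C.cell_x_ba t) (hT2 _))
  by_cases ht : t = 0
  · subst ht
    rw [C.R.x_zero hba, mul_one]
    by_cases hy : y = 0
    · subst hy
      rw [C.R.x_zero hca]
      exact C.cell_one
    · have e0 := (C.R.sc1 hcb.symm hca hba 1 y).eq
      rw [one_mul] at e0
      have e1 : x b a y * x c a y = x c a y * x b a y := C.R.comm hba hca hba hca.symm _ _
      have e2 : x c a y = x b c (-1) * ((x c a y * x b a y) * x b c 1) := by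
        rw [← e1, ← e0, ← mul_assoc, C.R.add hcb.symm, neg_add_cancel, C.R.x_zero hcb.symm, one_mul]
      rw [e2]
      exact C.cell_T (hT3 _) (C.cell_right (key y y hy) (hT3 _))
  · exact key y t ht

lemma F6b {c : ι} (hca : c ≠ a) (hcb : c ≠ b) (hT2 : ∀ u, x c b u ∈ T) (hT3 : ∀ u, x b c u ∈ T)
    (y t s : K) {τ : G} (hτ : τ ∈ T) : Cell x T a b (x c a y * x b a t * (x a b s * w x a b 1 * τ)) := by
  refine C.F6 {g | ∃ y t, g = x c a y * x b a t} ?_ ?_ ?_ ?_ ⟨y, t, rfl⟩ s hτ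
  · rintro _ ⟨y, t, rfl⟩ t'
    exact ⟨y, t + t', by rw [mul_assoc, C.R.add C.hab.symm]⟩
  · rintro _ ⟨y, t, rfl⟩ r hr
    obtain ⟨t', ht'⟩ := x_h C.R C.h3 C.hab hr C.hab.symm t
    obtain ⟨y', hy'⟩ := x_h C.R C.h3 C.hab hr hca y
    exact ⟨y', t', by
      have : (h x a b r)⁻¹ * (x c a y * x b a t) * h x a b r =
        (h x a b r)⁻¹ * x c a y * (x b a t * h x a b r) := by simp only [mul_assoc]
      rw [this, ht', ← mul_assoc, mul_assoc _ (x c a y), hy', inv_mul_cancel_left]⟩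
  · rintro _ ⟨y, t, rfl⟩
    have hm : (-1 : K) ≠ 0 := by simp
    have e1 : x c a y * w x a b 1 = w x a b 1 * x c b y := by
      have := (C.R.W3 C.hab hca hcb hm y).eq
      rw [C.R.w_one_inv C.hab] at this
      have e : - (-1 : K) * y = y := by ring
      rw [e] at this
      have e2 : x c a y = w x a b 1 * x c b y * (w x a b 1)⁻¹ := by
        rw [mul_assoc, ← this]; group
      rw [e2]; group
    have e3 : (w x a b 1)⁻¹ * (x c a y * x b a t) * w x a b 1 = x c b y * x a b (-t) := by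
      have : (w x a b 1)⁻¹ * (x c a y * x b a t) * w x a b 1 =
        (w x a b 1)⁻¹ * x c a y * (x b a t * w x a b 1) := by simp only [mul_assoc]
      rw [this, C.x_ba_w, ← mul_assoc, mul_assoc _ (x c a y), e1, inv_mul_cancel_left]
    rw [e3]
    exact mul_mem (hT2 _) (C.hT1 _)
  · rintro _ ⟨y, t, rfl⟩
    exact C.T4 hca hcb hT2 hT3 y t

/-- Absorbing `h_ab(r)` when there is a third index. -/
lemma F7 {c : ι} (hca : c ≠ a) (hcb : c ≠ b) {r : K} (hr : r ≠ 0) :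
    h x a b r * w x a b 1 = (w x c b (-1) * w x c b r⁻¹) * w x a b 1 * h x b c r := by
  have hba : b ≠ a := C.hab.symm
  have hm : (-1 : K) ≠ 0 := by simp
  have hone : (-1 : K)⁻¹ = -1 := by simp
  -- conjugation by `w_cb(-1)`
  have a1 : ∀ t : K, SemiconjBy (w x c b (-1)) (w x a c t) (w x a b t) := by
    intro t
    have := Rel.w_sc (x := x) (g := w x c b (-1)) (a := a) (b := c) (c := a) (d := b) (χ := 1) (t := t)
      (fun t => by
        have := C.R.W3 hcb hca.symm C.hab hm t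
        rwa [show - (-1 : K) * t = 1 * t by ring] at this)
      (fun t => by
        have := C.R.W2 hcb hba hca hm t
        rwa [show - (-1 : K)⁻¹ * t = 1⁻¹ * t by simp] at this)
    rwa [one_mul] at this
  have a1' : SemiconjBy (w x c b (-1)) (h x a c r) (h x a b r) := by
    unfold h
    exact (a1 r).mul_right (a1 (-1))
  -- conjugation by `h_ac(r)`
  have a2 : SemiconjBy (h x a c r) (w x c b (1 : K)) (w x c b r⁻¹) := by
    have := Rel.w_sc (x := x) (g := h x a c r) (a := c) (b := b) (c := c) (d := b) (χ := r⁻¹) (t := 1)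
      (fun t => by
        have := C.R.h_act C.h3 hca.symm hr hcb t
        have e : Rel.dg a c r c * (Rel.dg a c r b)⁻¹ * t = r⁻¹ * t := by
          simp [Rel.dg, hca, hcb.symm, hba, hca.symm, C.hab, hcb]
        rwa [e] at this)
      (fun t => by
        have := C.R.h_act C.h3 hca.symm hr hcb.symm t
        have e : Rel.dg a c r b * (Rel.dg a c r c)⁻¹ * t = r⁻¹⁻¹ * t := by
          simp [Rel.dg, hca, hcb.symm, hba, hca.symm, C.hab, hcb]
        rwa [e] at this)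
    rwa [mul_one] at this
  -- conjugation by `ŵ⁻¹`
  have a3 : ∀ t : K, SemiconjBy (w x a b (-1)) (w x a c t) (w x b c t) := by
    intro t
    have := Rel.w_sc (x := x) (g := w x a b (-1)) (a := a) (b := c) (c := b) (d := c) (χ := 1) (t := t)
      (fun t => by
        have := C.R.W2 C.hab hcb.symm hca.symm hm t
        rwa [show - (-1 : K)⁻¹ * t = 1 * t by simp] at this)
      (fun t => by
        have := C.R.W3 C.hab hca hcb hm t
        rwa [show - (-1 : K) * t = 1⁻¹ * t by simp] at this)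
    rwa [one_mul] at this
  have a3' : SemiconjBy (w x a b (-1)) (h x a c r) (h x b c r) := by
    unfold h
    exact (a3 r).mul_right (a3 (-1))
  have hwcb : w x c b (-1 : K) = (w x c b 1)⁻¹ := C.R.w_one_inv hcb
  have e1 : h x a b r = w x c b (-1) * w x c b r⁻¹ * h x a c r := by
    have a1e := a1'.eq
    have a2e := a2.eq
    calc h x a b r = (h x a b r * w x c b (-1)) * w x c b 1 := by rw [hwcb]; group
      _ = w x c b (-1) * (h x a c r * w x c b 1) := by rw [← a1e]; group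
      _ = _ := by rw [a2e]; group
  have e2 : h x a c r * w x a b 1 = w x a b 1 * h x b c r := by
    have := a3'.eq
    rw [C.R.w_one_inv C.hab] at this
    calc h x a c r * w x a b 1 = w x a b 1 * ((w x a b 1)⁻¹ * h x a c r) * w x a b 1 := by group
      _ = w x a b 1 * (h x b c r * (w x a b 1)⁻¹) * w x a b 1 := by rw [this]
      _ = _ := by group
  rw [e1, mul_assoc _ (h x a c r), e2]; group

end dec

end Ctx

end Cfsg.Agent.Lib.StN
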