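/-
The inductive step: the cell decomposition of the subgroups `Gs S`.
-/
import Cfsg.Agent.Lib.StN.Cell

set_option autoImplicit false

namespace Cfsg.Agent.Lib.StN

variable {ι K G : Type*} [Field K] [Group G] {x : ι → ι → K → G} [DecidableEq ι]

/-- The subgroup generated by root elements over `S`. -/
def Gs (x : ι → ι → K → G) (S : Finset ι) : Subgroup G := Xs x (fun i j => i ∈ S ∧ j ∈ S)

/-- The point stabilizer. -/
def Ts (x : ι → ι → K → G) (S : Finset ι) (a : ι) : Subgroup G := Xs x (fun i j => i ∈ S ∧ j ∈ S ∧ j ≠ a)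

/-- What we know about `x`. -/
structure Env (x : ι → ι → K → G) : Prop where
  R : Rel x
  h3 : ∀ p q : ι, ∃ c, c ≠ p ∧ c ≠ q
  hm : ∀ {a b : ι}, a ≠ b → ∀ {r s : K}, r ≠ 0 → s ≠ 0 → h x a b r * h x a b s = h x a b (r * s)

namespace Env

variable (E : Env x) {S : Finset ι} {a b c : ι}
include E

omit E in
lemma x_mem_T {i j : ι} (hi : i ∈ S) (hj : j ∈ S) (hij : i ≠ j) (hja : j ≠ a) (t : K) :
    x i j t ∈ Ts x S a := x_mem_Xs hij ⟨hi, hj, hja⟩ t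

omit E in
lemma w_mem_T {i j : ι} (hi : i ∈ S) (hj : j ∈ S) (hij : i ≠ j) (hia : i ≠ a) (hja : j ≠ a) (t : K) :
    w x i j t ∈ Ts x S a := by
  unfold w
  exact mul_mem (mul_mem (x_mem_T hi hj hij hja _) (x_mem_T hj hi hij.symm hia _)) (x_mem_T hi hj hij hja _)

omit E in
lemma h_mem_T {i j : ι} (hi : i ∈ S) (hj : j ∈ S) (hij : i ≠ j) (hia : i ≠ a) (hja : j ≠ a) (t : K) :
    h x i j t ∈ Ts x S a := by
  unfold h
  exact mul_mem (w_mem_T hi hj hij hia hja _) (w_mem_T hi hj hij hia hja _)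

lemma ctx (ha : a ∈ S) (hb : b ∈ S) (hab : a ≠ b) : Ctx x (Ts x S a) a b where
  R := E.R
  h3 := E.h3
  hab := hab
  hm := E.hm hab
  hT1 := fun t => x_mem_T ha hb hab hab.symm t
  hTn := fun hr τ hτ => h_norm E.R E.h3 hab hr τ hτ

/-- Generation: it suffices to check left multiplication by `x_ba`. -/
lemma Q_of_x_ba (ha : a ∈ S) (hb : b ∈ S) (hab : a ≠ b)
    (hk : ∀ t y, Cell x (Ts x S a) a b y → Cell x (Ts x S a) a b (x b a t * y)) :
    ∀ g ∈ Gs x S, Cell x (Ts x S a) a b g := by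
  have C := E.ctx ha hb hab
  refine Xs_ind E.R _ C.cell_one ?_
  rintro i j t hij ⟨hi, hj⟩ y hy
  by_cases hja : j = a
  · subst hja
    by_cases hib : i = b
    · subst hib
      exact hk t y hy
    · have e := E.R.rel hib hab.symm hij t 1
      rw [mul_one] at e
      rw [← e, E.R.x_inv hib, E.R.x_inv hab.symm]
      have h1 : x i b t ∈ Ts x S j := x_mem_T hi hb hib hab.symm t
      have h2 : x i b (-t) ∈ Ts x S j := x_mem_T hi hb hib hab.symm (-t)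
      have := C.cell_T h1 (hk 1 _ (C.cell_T h2 (hk (-1) y hy)))
      convert this using 1
      simp only [mul_assoc]
  · exact C.cell_T (x_mem_T hi hj hij hja t) hy

omit [DecidableEq ι] E in
lemma T_base_aux (R : Rel x) {P : ι → ι → Prop} (hab : a ≠ b) (hP : ∀ i j, i ≠ j → P i j → i = a ∧ j = b) :
    ∀ τ ∈ Xs x P, ∃ s, τ = x a b s := by
  refine Xs_ind R _ ⟨0, (R.x_zero hab).symm⟩ ?_
  rintro i j t hij hp y ⟨s, rfl⟩
  obtain ⟨rfl, rfl⟩ := hP i j hij hp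
  exact ⟨t + s, R.add hab _ _⟩

/-- The base case, `S = {a, b}`. -/
theorem base (hab : a ≠ b) : ∀ g ∈ Gs x {a, b}, Cell x (Ts x {a, b} a) a b g := by
  have ha : a ∈ ({a, b} : Finset ι) := by simp
  have hb : b ∈ ({a, b} : Finset ι) := by simp
  have C := E.ctx ha hb hab
  refine E.Q_of_x_ba ha hb hab ?_
  intro t y hy
  rcases hy with ⟨r, hr, τ, hτ, rfl⟩ | ⟨r, hr, τ₁, h1, τ₂, h2, rfl⟩
  · exact C.x_ba_cell1 t hr hτ
  · obtain ⟨s, rfl⟩ := T_base_aux E.R hab (fun i j hij hp => by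
      obtain ⟨hi, hj, hja⟩ := hp
      simp only [Finset.mem_insert, Finset.mem_singleton] at hi hj
      rcases hj with rfl | rfl
      · exact absurd rfl hja
      · rcases hi with rfl | rfl
        · exact ⟨rfl, rfl⟩
        · exact absurd rfl hij) τ₁ h1
    obtain ⟨s', hs'⟩ := x_h E.R E.h3 hab hr hab s
    obtain ⟨t', ht'⟩ := x_h E.R E.h3 hab hr hab.symm t
    have e : x b a t * (x a b s * (h x a b r * w x a b 1) * τ₂) =
        h x a b r * (x b a t' * (x a b s' * w x a b 1 * τ₂)) := by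
      calc _ = x b a t * (x a b s * h x a b r) * w x a b 1 * τ₂ := by simp only [mul_assoc]
        _ = (x b a t * h x a b r) * x a b s' * w x a b 1 * τ₂ := by rw [hs']; simp only [mul_assoc]
        _ = h x a b r * x b a t' * x a b s' * w x a b 1 * τ₂ := by rw [ht']
        _ = _ := by simp only [mul_assoc]
    rw [e]
    exact C.cell_h hr (C.F6a t' s' h2)


omit [DecidableEq ι] E in
lemma conj_w_neg (R : Rel x) (hab : a ≠ b) {y y' : G} (hs : SemiconjBy (w x a b (-1 : K)) y y') :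
    (w x a b (1 : K))⁻¹ * y * w x a b (1 : K) = y' := by
  have := hs.eq
  rw [R.w_one_inv hab] at this
  rw [this]; group

section step

variable (S a)

/-- The row subgroup. -/
def Aset (x : ι → ι → K → G) (S : Finset ι) (a : ι) : Subgroup G := Xs x (fun i j => i = a ∧ j ∈ S.erase a)
/-- The smaller row subgroup. -/
def Bset (x : ι → ι → K → G) (S : Finset ι) (a b : ι) : Subgroup G :=
  Xs x (fun i j => i = a ∧ j ∈ S.erase a ∧ j ≠ b)
/-- The subgroup moved into `T` by `ŵ`. -/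
def Eset (x : ι → ι → K → G) (S : Finset ι) (a b : ι) : Subgroup G :=
  Xs x (fun i j => i ∈ S ∧ j ∈ S ∧ j ≠ a ∧ j ≠ b)

variable {S a}

lemma A_norm : ∀ δ ∈ Gs x (S.erase a), ∀ ρ ∈ Aset x S a, δ * ρ * δ⁻¹ ∈ Aset x S a := by
  refine Xs_ind E.R _ (by simp) ?_
  rintro k l s hkl ⟨hk, hl⟩ y hy ρ hρ
  have h1 := hy ρ hρ
  have h2 : ∀ ρ' ∈ Aset x S a, x k l s * ρ' * (x k l s)⁻¹ ∈ Aset x S a := by
    refine Xs_conj _ fun i j t hij hp => ?_
    obtain ⟨hi, hj⟩ := hp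
    obtain rfl : a = i := hi.symm
    have hla : l ≠ a := (Finset.mem_erase.1 hl).1
    by_cases hkj : k = j
    · subst hkj
      rw [(E.R.sc2 hij hkl hla.symm t s).eq, mul_inv_cancel_right]
      exact mul_mem (x_mem_Xs hij ⟨rfl, hj⟩ _) (x_mem_Xs hla.symm ⟨rfl, hl⟩ _)
    · rw [E.R.comm hkl hij hkj hla, mul_inv_cancel_right]
      exact x_mem_Xs hij ⟨rfl, hj⟩ _
  have := h2 _ h1
  convert this using 1
  group

lemma dec : ∀ τ ∈ Ts x S a, ∃ δ ∈ Gs x (S.erase a), ∃ ρ ∈ Aset x S a, τ = δ * ρ := by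
  refine Xs_ind E.R _ ⟨1, one_mem _, 1, one_mem _, by simp⟩ ?_
  rintro i j t hij ⟨hi, hj, hja⟩ y ⟨δ, hδ, ρ, hρ, rfl⟩
  have hj' : j ∈ S.erase a := Finset.mem_erase.2 ⟨hja, hj⟩
  by_cases hia : i = a
  · obtain rfl : a = i := hia.symm
    refine ⟨δ, hδ, δ⁻¹ * x a j t * δ * ρ, mul_mem ?_ hρ, by group⟩
    have := E.A_norm δ⁻¹ (inv_mem hδ) (x a j t) (x_mem_Xs hij ⟨rfl, hj'⟩ t)
    simpa using this
  · refine ⟨x i j t * δ, mul_mem (x_mem_Xs hij ⟨Finset.mem_erase.2 ⟨hia, hi⟩, hj'⟩ t) hδ, ρ, hρ, by group⟩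

lemma row (hab : a ≠ b) : ∀ ρ ∈ Aset x S a, ∃ s, ∃ ρ' ∈ Bset x S a b, ρ = x a b s * ρ' := by
  refine Xs_ind E.R _ ⟨0, 1, one_mem _, by rw [E.R.x_zero hab, one_mul]⟩ ?_
  rintro i j t hij ⟨hi, hj⟩ y ⟨s, ρ', hρ', rfl⟩
  obtain rfl : a = i := hi.symm
  by_cases hjb : j = b
  · subst hjb
    exact ⟨t + s, ρ', hρ', by rw [← mul_assoc, E.R.add hab]⟩
  · refine ⟨s, x a j t * ρ', mul_mem (x_mem_Xs hij ⟨rfl, hj, hjb⟩ t) hρ', ?_⟩
    rw [← mul_assoc, ← mul_assoc, E.R.comm hij hab hab (Ne.symm hij)]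

omit E in
lemma B_le_E (ha : a ∈ S) : Bset x S a b ≤ Eset x S a b := by
  refine Xs_le fun i j t hij hp => ?_
  obtain ⟨hi, hj, hjb⟩ := hp
  obtain rfl : a = i := hi.symm
  exact x_mem_Xs hij ⟨ha, (Finset.mem_erase.1 hj).2, (Finset.mem_erase.1 hj).1, hjb⟩ t

lemma E_w (ha : a ∈ S) (hb : b ∈ S) (hab : a ≠ b) :
    ∀ e ∈ Eset x S a b, (w x a b 1)⁻¹ * e * w x a b 1 ∈ Ts x S a := by
  intro e he
  have hm : (-1 : K) ≠ 0 := by simp
  have := Xs_conj (x := x) (P := fun i j => i ∈ S ∧ j ∈ S ∧ j ≠ a ∧ j ≠ b) (H := Ts x S a) (w x a b 1)⁻¹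
    (fun i j t hij hp => ?_) e he
  · simpa using this
  · obtain ⟨hi, hj, hja, hjb⟩ := hp
    rw [inv_inv]
    by_cases hia : i = a
    · obtain rfl : a = i := hia.symm
      rw [conj_w_neg E.R hab (E.R.W2 hab (Ne.symm hjb) hij hm t)]
      exact x_mem_T hb hj (Ne.symm hjb) hja _
    · by_cases hib : i = b
      · obtain rfl : b = i := hib.symm
        rw [conj_w_neg E.R hab (E.R.W1 hab (Ne.symm hjb) (Ne.symm hja) hm t)]
        exact x_mem_T ha hj (Ne.symm hja) hja _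
      · rw [conj_w_neg E.R hab (E.R.W5 hab hij (Ne.symm hia) (Ne.symm hja) (Ne.symm hib) (Ne.symm hjb) (-1) t)]
        exact x_mem_T hi hj hij hja _

lemma V_E (ha : a ∈ S) (hab : a ≠ b) (s : K) :
    ∀ v ∈ Ts x (S.erase a) b, (x a b s)⁻¹ * v * x a b s ∈ Eset x S a b := by
  intro v hv
  have := Xs_conj (x := x) (P := fun i j => i ∈ S.erase a ∧ j ∈ S.erase a ∧ j ≠ b) (H := Eset x S a b) (x a b s)⁻¹
    (fun i j t hij hp => ?_) v hv
  · simpa using this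
  · obtain ⟨hi, hj, hjb⟩ := hp
    have hia := (Finset.mem_erase.1 hi).1
    have hja := (Finset.mem_erase.1 hj).1
    have hi' := (Finset.mem_erase.1 hi).2
    have hj' := (Finset.mem_erase.1 hj).2
    rw [inv_inv, E.R.x_inv hab]
    by_cases hib : i = b
    · obtain rfl : b = i := hib.symm
      rw [(E.R.sc1 hab hij (Ne.symm hja) (-s) t).eq, mul_assoc, E.R.add hab, neg_add_cancel, E.R.x_zero hab, mul_one]
      exact mul_mem (x_mem_Xs (Ne.symm hja) ⟨ha, hj', hja, hjb⟩ _) (x_mem_Xs hij ⟨hi', hj', hja, hjb⟩ _)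
    · rw [E.R.comm hab hij (Ne.symm hja) (Ne.symm hib), mul_assoc, E.R.add hab, neg_add_cancel, E.R.x_zero hab, mul_one]
      exact x_mem_Xs hij ⟨hi', hj', hja, hjb⟩ _

lemma V_comm {S' : Finset ι} (ha : a ∉ S') (hab : a ≠ b) (t : K) :
    ∀ v ∈ Ts x S' b, x b a t * v = v * x b a t := by
  refine Xs_ind E.R _ (by simp) ?_
  rintro i j u hij ⟨hi, hj, hjb⟩ y hy
  have hia : a ≠ i := fun e => ha (e ▸ hi)
  rw [← mul_assoc, E.R.comm hab.symm hij (Ne.symm hjb) hia, mul_assoc, hy, mul_assoc]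

/-- Normal form for the big cell. -/
lemma normal (ha : a ∈ S) (hb : b ∈ S) (hb' : b ∈ S.erase a) (hab : a ≠ b) {τ₁ τ₂ : G} (h1 : τ₁ ∈ Ts x S a)
    (h2 : τ₂ ∈ Ts x S a) {r : K} (hr : r ≠ 0) :
    ∃ δ ∈ Gs x (S.erase a), ∃ s, ∃ τ₃ ∈ Ts x S a,
      τ₁ * (h x a b r * w x a b 1) * τ₂ = δ * (h x a b r * (x a b s * w x a b 1 * τ₃)) := by
  obtain ⟨δ, hδ, ρ, hρ, rfl⟩ := E.dec _ h1
  obtain ⟨s₀, ρ', hρ', rfl⟩ := E.row hab _ hρ
  obtain ⟨s, hs⟩ := x_h E.R E.h3 hab hr hab s₀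
  have hρ'' : (h x a b r)⁻¹ * ρ' * h x a b r ∈ Eset x S a b := B_le_E ha (h_norm' E.R E.h3 hab hr _ hρ')
  refine ⟨δ, hδ, s, (w x a b 1)⁻¹ * ((h x a b r)⁻¹ * ρ' * h x a b r) * w x a b 1 * τ₂,
    mul_mem (E.E_w ha hb hab _ hρ'') h2, ?_⟩
  have e : x a b s₀ = h x a b r * x a b s * (h x a b r)⁻¹ := by
    rw [← hs]; group
  rw [e]; group

/-- Moving things across the big cell. -/
lemma V_slide (ha : a ∈ S) (hb : b ∈ S) (hab : a ≠ b) {v : G} (hv : v ∈ Ts x (S.erase a) b) (s : K) {τ : G}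
    (hτ : τ ∈ Ts x S a) :
    ∃ τ' ∈ Ts x S a, v * (x a b s * w x a b 1 * τ) = x a b s * w x a b 1 * τ' := by
  have he := E.V_E ha hab s v hv
  refine ⟨(w x a b 1)⁻¹ * ((x a b s)⁻¹ * v * x a b s) * w x a b 1 * τ, mul_mem (E.E_w ha hb hab _ he) hτ, ?_⟩
  group

lemma D (ha : a ∈ S) (hb : b ∈ S) (hc : c ∈ S) (hab : a ≠ b) (hca : c ≠ a) (hcb : c ≠ b) (y t : K) {v : G}
    (hv : v ∈ Ts x (S.erase a) b) {r : K} (hr : r ≠ 0) (s : K) {τ : G} (hτ : τ ∈ Ts x S a) :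
    Cell x (Ts x S a) a b (x c a y * x b a t * (v * (h x a b r * (x a b s * w x a b 1 * τ)))) := by
  have C := E.ctx ha hb hab
  obtain ⟨t', ht'⟩ := x_h E.R E.h3 hab hr hab.symm t
  obtain ⟨y', hy'⟩ := x_h E.R E.h3 hab hr hca y
  have hv' : (h x a b r)⁻¹ * v * h x a b r ∈ Ts x (S.erase a) b := h_norm' E.R E.h3 hab hr _ hv
  obtain ⟨τ', hτ', e⟩ := E.V_slide ha hb hab hv' s hτ
  have key : x c a y * x b a t * (v * (h x a b r * (x a b s * w x a b 1 * τ))) =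
      h x a b r * (x c a y' * x b a t' * (x a b s * w x a b 1 * τ')) := by
    rw [← e]
    have e1 : x c a y * x b a t = h x a b r * (x c a y' * x b a t') * (h x a b r)⁻¹ := by
      rw [eq_mul_inv_iff_mul_eq, mul_assoc, ht', ← mul_assoc, hy', mul_assoc]
    rw [e1]; group
  rw [key]
  exact C.cell_h hr (C.F6b hca hcb (fun u => x_mem_T hc hb hcb hab.symm u) (fun u => x_mem_T hb hc (Ne.symm hcb) hca u) _ _ _ hτ')

/-- The closure under `x_ba`. -/
lemma step_x_ba (ha : a ∈ S) (hb' : b ∈ S.erase a) (hc' : c ∈ S.erase a) (hbc : b ≠ c)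
    (IH : ∀ g ∈ Gs x (S.erase a), Cell x (Ts x (S.erase a) b) b c g) (t : K) {y : G}
    (hy : Cell x (Ts x S a) a b y) : Cell x (Ts x S a) a b (x b a t * y) := by
  have hb := (Finset.mem_erase.1 hb').2
  have hc := (Finset.mem_erase.1 hc').2
  have hab : a ≠ b := Ne.symm (Finset.mem_erase.1 hb').1
  have hca : c ≠ a := (Finset.mem_erase.1 hc').1
  have hcb : c ≠ b := Ne.symm hbc
  have C := E.ctx ha hb hab
  rcases hy with ⟨r, hr, τ, hτ, rfl⟩ | ⟨r, hr, τ₁, h1, τ₂, h2, rfl⟩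
  · exact C.x_ba_cell1 t hr hτ
  · obtain ⟨δ, hδ, s, τ₃, hτ₃, e⟩ := E.normal ha hb hb' hab h1 h2 hr
    rw [e]
    have hbT : ∀ r₀, h x b c r₀ ∈ Ts x S a := fun r₀ => h_mem_T hb hc hbc hab.symm hca r₀
    rcases IH δ hδ with ⟨r₀, hr₀, v₂, hv₂, rfl⟩ | ⟨r₀, hr₀, v₁, hv₁, v₂, hv₂, rfl⟩
    · obtain ⟨t', ht'⟩ := x_h E.R E.h3 hbc hr₀ hab.symm t
      have := C.cell_T (hbT r₀) (E.D ha hb hc hab hca hcb 0 t' hv₂ hr s hτ₃)
      convert this using 1
      rw [E.R.x_zero hca, one_mul]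
      calc _ = (x b a t * h x b c r₀) * (v₂ * (h x a b r * (x a b s * w x a b 1 * τ₃))) := by simp only [mul_assoc]
        _ = _ := by rw [ht']; simp only [mul_assoc]
    · obtain ⟨t', ht'⟩ := x_h E.R E.h3 hbc hr₀ hab.symm t
      have hm : (-1 : K) ≠ 0 := by simp
      have e1 : x b a t' * w x b c 1 = w x b c 1 * x c a t' := by
        have := (E.R.W2 hbc hca hab.symm hm t').eq
        rw [E.R.w_one_inv hbc, show - (-1 : K)⁻¹ * t' = t' by simp] at this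
        calc x b a t' * w x b c 1 = w x b c 1 * ((w x b c 1)⁻¹ * x b a t') * w x b c 1 := by group
          _ = w x b c 1 * (x c a t' * (w x b c 1)⁻¹) * w x b c 1 := by rw [this]
          _ = _ := by group
      have hv₁T : v₁ ∈ Ts x S a := Xs_le (fun i j t hij hp => by
        obtain ⟨hi, hj, _⟩ := hp
        exact x_mem_T (Finset.mem_erase.1 hi).2 (Finset.mem_erase.1 hj).2 hij (Finset.mem_erase.1 hj).1 t) hv₁
      have hwT : w x b c 1 ∈ Ts x S a := w_mem_T hb hc hbc hab.symm hca 1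
      have := C.cell_T (mul_mem (mul_mem hv₁T (hbT r₀)) hwT) (E.D ha hb hc hab hca hcb t' 0 hv₂ hr s hτ₃)
      convert this using 1
      rw [E.R.x_zero hab.symm, mul_one]
      have hvc := E.V_comm (Finset.notMem_erase a S) hab t v₁ hv₁
      calc _ = (x b a t * v₁) * h x b c r₀ * w x b c 1 * (v₂ * (h x a b r * (x a b s * w x a b 1 * τ₃))) := by
            simp only [mul_assoc]
        _ = v₁ * (x b a t * h x b c r₀) * w x b c 1 * (v₂ * (h x a b r * (x a b s * w x a b 1 * τ₃))) := by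
            rw [hvc]; simp only [mul_assoc]
        _ = v₁ * h x b c r₀ * (x b a t' * w x b c 1) * (v₂ * (h x a b r * (x a b s * w x a b 1 * τ₃))) := by
            rw [ht']; simp only [mul_assoc]
        _ = _ := by rw [e1]; simp only [mul_assoc]

/-- The absorbing form of big cell in the step. -/
lemma big_form (ha : a ∈ S) (hb' : b ∈ S.erase a) (hc' : c ∈ S.erase a) (hbc : b ≠ c)
    {τ₁ τ₂ : G} (h1 : τ₁ ∈ Ts x S a) (h2 : τ₂ ∈ Ts x S a) {r : K} (hr : r ≠ 0) :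
    ∃ δ ∈ Gs x (S.erase a), ∃ s, ∃ τ₃ ∈ Ts x S a,
      τ₁ * (h x a b r * w x a b 1) * τ₂ = δ * (x a b s * w x a b 1 * τ₃) := by
  have hb := (Finset.mem_erase.1 hb').2
  have hc := (Finset.mem_erase.1 hc').2
  have hab : a ≠ b := Ne.symm (Finset.mem_erase.1 hb').1
  have hca : c ≠ a := (Finset.mem_erase.1 hc').1
  have hcb : c ≠ b := Ne.symm hbc
  have C := E.ctx ha hb hab
  have e7 := C.F7 hca hcb hr
  have hT5 : w x c b (-1) * w x c b r⁻¹ ∈ Ts x S a :=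
    mul_mem (w_mem_T hc hb hcb hca hab.symm _) (w_mem_T hc hb hcb hca hab.symm _)
  have hT6 : h x b c r ∈ Ts x S a := h_mem_T hb hc hbc hab.symm hca r
  obtain ⟨δ, hδ, s, τ₃, hτ₃, e⟩ := E.normal ha hb hb' hab (mul_mem h1 hT5) (mul_mem hT6 h2) (r := 1) one_ne_zero
  refine ⟨δ, hδ, s, τ₃, hτ₃, ?_⟩
  rw [E.R.h_one hab, one_mul] at e
  rw [one_mul] at e
  rw [← e, e7]; group

end step

end Env

end Cfsg.Agent.Lib.StN
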