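/-
Counting: the group generated by root elements satisfying the Steinberg relations is no bigger than `SL_n`.
-/
import Cfsg.Agent.Lib.StN.Step

set_option autoImplicit false

namespace Cfsg.Agent.Lib.StN

variable {ι K G : Type*} [Field K] [Group G] {x : ι → ι → K → G} [DecidableEq ι] [Fintype K]

/-- Coset representatives. -/
def Pcount (x : ι → ι → K → G) (S : Finset ι) (a : ι) (n : ℕ) : Prop :=
  ∃ Rf : Finset G, Rf.card ≤ n ∧ ∀ g ∈ Gs x S, ∃ ρ ∈ Rf, ∃ τ ∈ Ts x S a, g = ρ * τ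

/-- The recursive count. -/
def dd (q : ℕ) : ℕ → ℕ
  | 0 => 1
  | k + 1 => (q ^ (k + 2) - 1) * (dd q k * q ^ (k + 1))

lemma dd_eq {q : ℕ} (hq : 1 ≤ q) (k : ℕ) : (q - 1) * dd q k = ∏ i : Fin (k + 1), (q ^ (k + 1) - q ^ (i : ℕ)) := by
  induction k with
  | zero => simp [dd]
  | succ k ih =>
    rw [Fin.prod_univ_succ]
    have e : ∀ i : Fin (k + 1), q ^ (k + 1 + 1) - q ^ ((Fin.succ i : Fin (k + 2)) : ℕ) = q * (q ^ (k + 1) - q ^ (i : ℕ)) := by
      intro i
      rw [Nat.mul_sub, Fin.val_succ, pow_succ' q (k + 1), pow_succ' q (i : ℕ)]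
    simp only [e, Finset.prod_mul_distrib, Finset.prod_const, Finset.card_univ, Fintype.card_fin, ← ih]
    simp only [dd, Fin.val_zero, pow_zero]
    ring

namespace Env

variable (E : Env x) {S : Finset ι} {a b c : ι}
include E

theorem base_count (hab : a ≠ b) : Pcount x {a, b} a (Fintype.card K ^ 2 - 1) := by
  classical
  have hq : 1 ≤ Fintype.card K := Fintype.card_pos
  let NZ : Finset K := Finset.univ.erase 0
  have hNZ : NZ.card = Fintype.card K - 1 := by
    rw [Finset.card_erase_of_mem (Finset.mem_univ _), Finset.card_univ]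
  refine ⟨NZ.image (fun r => h x a b r) ∪
    (Finset.univ ×ˢ NZ).image (fun p : K × K => x a b p.1 * (h x a b p.2 * w x a b 1)), ?_, ?_⟩
  · refine (Finset.card_union_le _ _).trans ?_
    have h1 := Finset.card_image_le (s := NZ) (f := fun r => h x a b r)
    have h2 := Finset.card_image_le (s := (Finset.univ ×ˢ NZ)) (f := fun p : K × K => x a b p.1 * (h x a b p.2 * w x a b 1))
    rw [Finset.card_product, Finset.card_univ, hNZ] at h2
    rw [hNZ] at h1
    refine (add_le_add h1 h2).trans (le_of_eq ?_)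
    obtain ⟨p, hp⟩ : ∃ p, Fintype.card K = p + 1 := ⟨Fintype.card K - 1, by omega⟩
    rw [hp]
    simp only [Nat.add_sub_cancel]
    have : (p + 1) ^ 2 = p + (p + 1) * p + 1 := by ring
    omega
  · intro g hg
    rcases E.base hab g hg with ⟨r, hr, τ, hτ, rfl⟩ | ⟨r, hr, τ₁, h1, τ₂, h2, rfl⟩
    · exact ⟨h x a b r, Finset.mem_union_left _ (Finset.mem_image.2 ⟨r, by simp [NZ, hr], rfl⟩), τ, hτ, rfl⟩
    · obtain ⟨s, rfl⟩ := T_base_aux E.R hab (fun i j hij hp => by
        obtain ⟨hi, hj, hja⟩ := hp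
        simp only [Finset.mem_insert, Finset.mem_singleton] at hi hj
        rcases hj with rfl | rfl
        · exact absurd rfl hja
        · rcases hi with rfl | rfl
          · exact ⟨rfl, rfl⟩
          · exact absurd rfl hij) τ₁ h1
      exact ⟨_, Finset.mem_union_right _ (Finset.mem_image.2 ⟨(s, r), by simp [NZ, hr], rfl⟩), τ₂, h2, rfl⟩

theorem step_count (ha : a ∈ S) (hb' : b ∈ S.erase a) (hc' : c ∈ S.erase a) (hbc : b ≠ c)
    (IH : ∀ g ∈ Gs x (S.erase a), Cell x (Ts x (S.erase a) b) b c g) {m : ℕ}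
    (hP : Pcount x (S.erase a) b m) :
    (∀ g ∈ Gs x S, Cell x (Ts x S a) a b g) ∧ Pcount x S a ((Fintype.card K - 1) + m * Fintype.card K) := by
  classical
  have hb := (Finset.mem_erase.1 hb').2
  have hab : a ≠ b := Ne.symm (Finset.mem_erase.1 hb').1
  have hQ : ∀ g ∈ Gs x S, Cell x (Ts x S a) a b g :=
    E.Q_of_x_ba ha hb hab (fun t y hy => E.step_x_ba ha hb' hc' hbc IH t hy)
  refine ⟨hQ, ?_⟩
  obtain ⟨Rf, hRf, hR⟩ := hP
  let NZ : Finset K := Finset.univ.erase 0
  have hNZ : NZ.card = Fintype.card K - 1 := by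
    rw [Finset.card_erase_of_mem (Finset.mem_univ _), Finset.card_univ]
  refine ⟨NZ.image (fun r => h x a b r) ∪
    (Rf ×ˢ (Finset.univ : Finset K)).image (fun p : G × K => p.1 * (x a b p.2 * w x a b 1)), ?_, ?_⟩
  · refine (Finset.card_union_le _ _).trans ?_
    have h1 := Finset.card_image_le (s := NZ) (f := fun r => h x a b r)
    have h2 := Finset.card_image_le (s := (Rf ×ˢ (Finset.univ : Finset K))) (f := fun p : G × K => p.1 * (x a b p.2 * w x a b 1))
    rw [Finset.card_product, Finset.card_univ] at h2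
    rw [hNZ] at h1
    exact add_le_add h1 (h2.trans (Nat.mul_le_mul_right _ hRf))
  · intro g hg
    rcases hQ g hg with ⟨r, hr, τ, hτ, rfl⟩ | ⟨r, hr, τ₁, h1, τ₂, h2, rfl⟩
    · exact ⟨h x a b r, Finset.mem_union_left _ (Finset.mem_image.2 ⟨r, by simp [NZ, hr], rfl⟩), τ, hτ, rfl⟩
    · obtain ⟨δ, hδ, s, τ₃, hτ₃, e⟩ := E.big_form ha hb' hc' hbc h1 h2 hr
      obtain ⟨ρ₀, hρ₀, v, hv, rfl⟩ := hR δ hδ
      obtain ⟨τ', hτ', e'⟩ := E.V_slide ha hb hab hv s hτ₃
      refine ⟨ρ₀ * (x a b s * w x a b 1), Finset.mem_union_right _ (Finset.mem_image.2 ⟨(ρ₀, s), by simp [hρ₀], rfl⟩),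
        τ', hτ', ?_⟩
      rw [e, mul_assoc, e']; simp only [mul_assoc]

/-- The main induction. -/
theorem main : ∀ (k : ℕ) (S : Finset ι), S.card = k + 2 → ∀ a b, a ∈ S → b ∈ S → a ≠ b →
    (∀ g ∈ Gs x S, Cell x (Ts x S a) a b g) ∧ Pcount x S a (Fintype.card K ^ (k + 2) - 1) := by
  intro k
  induction k with
  | zero =>
    intro S hS a b ha hb hab
    have hS' : S = {a, b} := by
      symm
      apply Finset.eq_of_subset_of_card_le
      · intro y hy
        simp only [Finset.mem_insert, Finset.mem_singleton] at hy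
        rcases hy with rfl | rfl <;> assumption
      · rw [hS, Finset.card_pair hab]
    subst hS'
    exact ⟨E.base hab, E.base_count hab⟩
  | succ k ih =>
    intro S hS a b ha hb hab
    have hb' : b ∈ S.erase a := Finset.mem_erase.2 ⟨hab.symm, hb⟩
    have hcard : (S.erase a).card = k + 2 := by
      rw [Finset.card_erase_of_mem ha, hS]; rfl
    obtain ⟨c, hc', hcb⟩ := Finset.exists_mem_ne (by omega : 1 < (S.erase a).card) b
    obtain ⟨h1, h2⟩ := ih (S.erase a) hcard b c hb' hc' (Ne.symm hcb)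
    obtain ⟨h3, h4⟩ := E.step_count ha hb' hc' (Ne.symm hcb) h1 h2
    refine ⟨h3, ?_⟩
    obtain ⟨Rf, hRf, hR⟩ := h4
    refine ⟨Rf, hRf.trans (le_of_eq ?_), hR⟩
    have hq : 1 ≤ Fintype.card K := Fintype.card_pos
    have hq2 : 1 ≤ Fintype.card K ^ (k + 2) := Nat.one_le_pow _ _ hq
    have e1 : Fintype.card K ^ (k + 1 + 2) = Fintype.card K ^ (k + 2) * Fintype.card K := pow_succ _ _
    rw [e1, Nat.sub_mul, one_mul]
    have e2 : Fintype.card K ≤ Fintype.card K ^ (k + 2) * Fintype.card K := Nat.le_mul_of_pos_left _ (by omega)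
    omega

/-- Cover of a row. -/
theorem row_cover (a : ι) (S' : Finset ι) (ha : a ∉ S') :
    ∃ F : Finset G, F.card ≤ Fintype.card K ^ S'.card ∧ ∀ ρ ∈ Xs x (fun i j => i = a ∧ j ∈ S'), ρ ∈ F := by
  classical
  induction S' using Finset.induction_on with
  | empty =>
    refine ⟨{1}, by simp, ?_⟩
    refine Xs_ind E.R _ (by simp) ?_
    rintro i j t _ ⟨_, hj⟩
    simp at hj
  | insert j S'' hj ih =>
    have ha'' : a ∉ S'' := fun h => ha (Finset.mem_insert_of_mem h)
    have haj : a ≠ j := fun h => ha (h ▸ Finset.mem_insert_self _ _)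
    obtain ⟨F, hF, hF'⟩ := ih ha''
    refine ⟨((Finset.univ : Finset K) ×ˢ F).image (fun p => x a j p.1 * p.2), ?_, ?_⟩
    · refine Finset.card_image_le.trans ?_
      rw [Finset.card_product, Finset.card_univ, Finset.card_insert_of_notMem hj, pow_succ']
      exact Nat.mul_le_mul_left _ hF
    · have key : ∀ ρ ∈ Xs x (fun i l => i = a ∧ l ∈ insert j S''),
          ∃ t, ∃ g ∈ Xs x (fun i l => i = a ∧ l ∈ S''), ρ = x a j t * g := by
        refine Xs_ind E.R _ ⟨0, 1, one_mem _, by rw [E.R.x_zero haj, one_mul]⟩ ?_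
        rintro i l t hil ⟨hi, hl⟩ y ⟨s, g, hg, rfl⟩
        obtain rfl : a = i := hi.symm
        rcases Finset.mem_insert.1 hl with rfl | hl'
        · exact ⟨t + s, g, hg, by rw [← mul_assoc, E.R.add haj]⟩
        · refine ⟨s, x a l t * g, mul_mem (x_mem_Xs hil ⟨rfl, hl'⟩ t) hg, ?_⟩
          rw [← mul_assoc, ← mul_assoc, E.R.comm hil haj haj (Ne.symm hil)]
      intro ρ hρ
      obtain ⟨t, g, hg, rfl⟩ := key ρ hρ
      exact Finset.mem_image.2 ⟨(t, g), by simp [hF' g hg], rfl⟩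

/-- The total bound. -/
theorem card_bound : ∀ (k : ℕ) (S : Finset ι), S.card = k + 1 →
    ∃ F : Finset G, F.card ≤ dd (Fintype.card K) k ∧ ∀ g ∈ Gs x S, g ∈ F := by
  classical
  intro k
  induction k with
  | zero =>
    intro S hS
    refine ⟨{1}, by simp [dd], ?_⟩
    obtain ⟨i, rfl⟩ := Finset.card_eq_one.1 hS
    refine Xs_ind E.R _ (by simp) ?_
    rintro p q t hpq ⟨hp, hq⟩
    simp only [Finset.mem_singleton] at hp hq
    exact absurd (hp.trans hq.symm) hpq
  | succ k ih =>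
    intro S hS
    obtain ⟨a, ha, b, hb, hab⟩ := Finset.one_lt_card.1 (by omega : 1 < S.card)
    obtain ⟨-, Rf, hRf, hR⟩ := E.main k S hS a b ha hb hab
    have hcard : (S.erase a).card = k + 1 := by
      rw [Finset.card_erase_of_mem ha, hS]; rfl
    obtain ⟨F', hF', hF''⟩ := ih (S.erase a) hcard
    obtain ⟨FA, hFA, hFA'⟩ := E.row_cover a (S.erase a) (Finset.notMem_erase a S)
    refine ⟨(Rf ×ˢ (F' ×ˢ FA)).image (fun p => p.1 * (p.2.1 * p.2.2)), ?_, ?_⟩
    · refine Finset.card_image_le.trans ?_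
      rw [Finset.card_product, Finset.card_product]
      rw [hcard] at hFA
      exact Nat.mul_le_mul hRf (Nat.mul_le_mul hF' hFA)
    · intro g hg
      obtain ⟨ρ, hρ, τ, hτ, rfl⟩ := hR g hg
      obtain ⟨δ, hδ, α, hα, rfl⟩ := E.dec τ hτ
      exact Finset.mem_image.2 ⟨(ρ, δ, α), by simp [hρ, hF'' δ hδ, hFA' α hα], rfl⟩

end Env

end Cfsg.Agent.Lib.StN
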