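/-
The Steinberg presentation of `SL_n`: any group generated by root elements satisfying the Steinberg relations
and mapping to the transvections of `SL_n` is isomorphic to `SL_n`.
-/
import Cfsg.Agent.Lib.StN.Count
import Cfsg.Agent.Lib.Classical.Basic
import Cfsg.Agent.Lib.Classical.Transvection

set_option autoImplicit false

open Matrix Matrix.SpecialLinearGroup

namespace Cfsg.Agent.Lib.StN

section matrices

variable {ι F : Type*} [Fintype ι] [DecidableEq ι] [Field F]

lemma T_add {i j : ι} (hij : i ≠ j) (t u : F) :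
    (transvection hij t : SpecialLinearGroup ι F) * transvection hij u = transvection hij (t + u) := by
  apply Subtype.ext
  simp only [coe_mul, transvection_coe]
  ext a b
  simp only [Classical.mul_one_add_single_apply, Matrix.add_apply, Matrix.one_apply, Matrix.single_apply]
  grind

lemma T_comm {i j k l : ι} (hij : i ≠ j) (hkl : k ≠ l) (hil : i ≠ l) (hjk : j ≠ k) (t u : F) :
    (transvection hij t : SpecialLinearGroup ι F) * transvection hkl u = transvection hkl u * transvection hij t := by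
  apply Subtype.ext
  simp only [coe_mul, transvection_coe]
  ext a b
  simp only [Classical.mul_one_add_single_apply, Matrix.add_apply, Matrix.one_apply, Matrix.single_apply]
  grind

lemma T_rel {i j k : ι} (hij : i ≠ j) (hjk : j ≠ k) (hik : i ≠ k) (t u : F) :
    (transvection hij t : SpecialLinearGroup ι F) * transvection hjk u * (transvection hij t)⁻¹ * (transvection hjk u)⁻¹ =
      transvection hik (t * u) := by
  rw [transvection_inv, transvection_inv]
  apply Subtype.ext
  simp only [coe_mul, transvection_coe]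
  ext a b
  simp only [Classical.mul_one_add_single_apply, Matrix.add_apply, Matrix.one_apply, Matrix.single_apply]
  grind

end matrices

variable {K G : Type*} [Field K] [Finite K] [Group G] {n : ℕ} {x : Fin n → Fin n → K → G}

lemma third_index (hn : 3 ≤ n) (p q : Fin n) : ∃ c, c ≠ p ∧ c ≠ q := by
  by_contra hcon
  push Not at hcon
  have h1 : (Finset.univ : Finset (Fin n)) ⊆ {p, q} := by
    intro c _
    by_cases hc : c = p
    · simp [hc]
    · simp [hcon c hc]
  have := Finset.card_le_card h1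
  rw [Finset.card_univ, Fintype.card_fin] at this
  have h2 := Finset.card_le_two (a := p) (b := q)
  omega

/-- The key theorem: a group with the Steinberg relations mapping compatibly to `SL_n` is isomorphic to it. -/
theorem bij_of_rel (hn : 3 ≤ n) (R : Rel x)
    (hgen : Subgroup.closure {g : G | ∃ (a b : Fin n) (t : K), a ≠ b ∧ g = x a b t} = ⊤)
    (φ : G →* SpecialLinearGroup (Fin n) K)
    (hφ : ∀ (i j : Fin n) (hij : i ≠ j) (t : K), φ (x i j t) = transvection hij t) :
    Function.Bijective φ := by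
  classical
  haveI := Fintype.ofFinite K
  have E : Env x := ⟨R, third_index hn, fun hab _ _ hr hs => R.h_mul (third_index hn) hgen hab hr hs⟩
  obtain ⟨k, rfl⟩ : ∃ k, n = k + 1 := ⟨n - 1, by omega⟩
  obtain ⟨F, hF, hF'⟩ := E.card_bound k Finset.univ (by simp)
  have hGs : Gs x Finset.univ = ⊤ := by
    rw [eq_top_iff, ← hgen, Subgroup.closure_le]
    rintro _ ⟨a, b, t, hab, rfl⟩
    exact x_mem_Xs hab (by simp) t
  have hall : ∀ g : G, g ∈ F := fun g => hF' g (by rw [hGs]; exact Subgroup.mem_top g)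
  let toF : G → F := fun g => ⟨g, hall g⟩
  have htoF : Function.Injective toF := fun a b e => congrArg Subtype.val e
  haveI : Finite G := Finite.of_injective toF htoF
  have hcardG : Nat.card G ≤ dd (Fintype.card K) k := by
    refine (Nat.card_le_card_of_injective toF htoF).trans ?_
    rw [Nat.card_eq_fintype_card, Fintype.card_coe]
    exact hF
  haveI : Nontrivial (Fin (k + 1)) := Fin.nontrivial_iff_two_le.2 (by omega)
  have hsurj : Function.Surjective φ := by
    rw [← MonoidHom.range_eq_top, eq_top_iff, ← Classical.closure_transvections, Subgroup.closure_le]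
    rintro _ ⟨i, j, hij, a, rfl⟩
    exact ⟨x i j a, hφ i j hij a⟩
  refine hsurj.bijective_of_nat_card_le (hcardG.trans (le_of_eq ?_))
  have hq : 2 ≤ Fintype.card K := Fintype.one_lt_card
  have e1 := Classical.card_SL (F := K) rfl (k + 1) (by omega)
  have e2 := dd_eq (by omega : 1 ≤ Fintype.card K) k
  have : (Fintype.card K - 1) * dd (Fintype.card K) k =
      (Fintype.card K - 1) * Nat.card (SpecialLinearGroup (Fin (k + 1)) K) := by
    rw [e1, e2]
  exact Nat.eq_of_mul_eq_mul_left (by omega) this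

/-- The relators of the Steinberg presentation. -/
def StRels (n : ℕ) (K : Type*) [Field K] : Set (FreeGroup ({ij : Fin n × Fin n // ij.1 ≠ ij.2} × K)) :=
  {g : FreeGroup ({ij : Fin n × Fin n // ij.1 ≠ ij.2} × K) | ∃ (a : {ij : Fin n × Fin n // ij.1 ≠ ij.2}) (t u : K),
      g = FreeGroup.of (a, t) * FreeGroup.of (a, u) * (FreeGroup.of (a, t + u))⁻¹} ∪
    {g | ∃ (a b : {ij : Fin n × Fin n // ij.1 ≠ ij.2}) (t u : K), a.1.1 ≠ b.1.2 ∧ a.1.2 ≠ b.1.1 ∧
      g = FreeGroup.of (a, t) * FreeGroup.of (b, u) * (FreeGroup.of (a, t))⁻¹ * (FreeGroup.of (b, u))⁻¹} ∪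
    {g | ∃ (a b : {ij : Fin n × Fin n // ij.1 ≠ ij.2}) (h : a.1.1 ≠ b.1.2) (t u : K), a.1.2 = b.1.1 ∧
      g = FreeGroup.of (a, t) * FreeGroup.of (b, u) * (FreeGroup.of (a, t))⁻¹ * (FreeGroup.of (b, u))⁻¹ *
        (FreeGroup.of (⟨(a.1.1, b.1.2), h⟩, t * u))⁻¹}

/-- The root elements of the presented group. -/
noncomputable def xP (n : ℕ) (K : Type*) [Field K] (i j : Fin n) (t : K) : PresentedGroup (StRels n K) :=
  if h : i ≠ j then PresentedGroup.of (⟨(i, j), h⟩, t) else 1

omit [Finite K] in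
lemma xP_of {n : ℕ} {i j : Fin n} (h : i ≠ j) (t : K) : xP n K i j t = PresentedGroup.of (⟨(i, j), h⟩, t) := dif_pos h

omit [Finite K] in
lemma xP_rel (n : ℕ) : Rel (xP n K) where
  add := by
    intro i j hij t u
    rw [xP_of hij, xP_of hij, xP_of hij]
    have := PresentedGroup.one_of_mem (rels := StRels n K)
      (x := FreeGroup.of (⟨(i, j), hij⟩, t) * FreeGroup.of (⟨(i, j), hij⟩, u) * (FreeGroup.of (⟨(i, j), hij⟩, t + u))⁻¹)
      (Or.inl (Or.inl ⟨_, t, u, rfl⟩))
    rw [map_mul, map_mul, map_inv, mul_inv_eq_one] at this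
    exact this
  comm := by
    intro i j k l hij hkl hil hjk t u
    rw [xP_of hij, xP_of hkl]
    have := PresentedGroup.one_of_mem (rels := StRels n K)
      (x := FreeGroup.of (⟨(i, j), hij⟩, t) * FreeGroup.of (⟨(k, l), hkl⟩, u) * (FreeGroup.of (⟨(i, j), hij⟩, t))⁻¹ *
        (FreeGroup.of (⟨(k, l), hkl⟩, u))⁻¹)
      (Or.inl (Or.inr ⟨_, _, t, u, hil, hjk, rfl⟩))
    rw [map_mul, map_mul, map_mul, map_inv, map_inv, mul_inv_eq_one, mul_inv_eq_iff_eq_mul] at this
    exact this
  rel := by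
    intro i j k hij hjk hik t u
    rw [xP_of hij, xP_of hjk, xP_of hik]
    have := PresentedGroup.one_of_mem (rels := StRels n K)
      (x := FreeGroup.of (⟨(i, j), hij⟩, t) * FreeGroup.of (⟨(j, k), hjk⟩, u) * (FreeGroup.of (⟨(i, j), hij⟩, t))⁻¹ *
        (FreeGroup.of (⟨(j, k), hjk⟩, u))⁻¹ * (FreeGroup.of (⟨(i, k), hik⟩, t * u))⁻¹)
      (Or.inr ⟨⟨(i, j), hij⟩, ⟨(j, k), hjk⟩, hik, t, u, rfl, rfl⟩)
    rw [map_mul, map_mul, map_mul, map_mul, map_inv, map_inv, map_inv, mul_inv_eq_one] at this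
    exact this

omit [Finite K] in
lemma xP_gen (n : ℕ) :
    Subgroup.closure {g : PresentedGroup (StRels n K) | ∃ (a b : Fin n) (t : K), a ≠ b ∧ g = xP n K a b t} = ⊤ := by
  rw [eq_top_iff, ← PresentedGroup.closure_range_of, Subgroup.closure_le]
  rintro _ ⟨⟨⟨⟨i, j⟩, hij⟩, t⟩, rfl⟩
  exact Subgroup.subset_closure ⟨i, j, t, hij, (xP_of hij t).symm⟩

/-- The map to `SL_n`. -/
noncomputable def toSL (n : ℕ) (K : Type*) [Field K] : PresentedGroup (StRels n K) →* SpecialLinearGroup (Fin n) K :=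
  PresentedGroup.toGroup (f := fun p : ({ij : Fin n × Fin n // ij.1 ≠ ij.2} × K) => SpecialLinearGroup.transvection p.1.2 p.2) (by
    rintro r ((⟨a, t, u, rfl⟩ | ⟨a, b, t, u, h1, h2, rfl⟩) | ⟨a, b, h, t, u, h1, rfl⟩)
    · simp only [map_mul, map_inv, FreeGroup.lift_apply_of, mul_inv_eq_one]
      exact T_add a.2 t u
    · simp only [map_mul, map_inv, FreeGroup.lift_apply_of, mul_inv_eq_iff_eq_mul, one_mul]
      exact T_comm a.2 b.2 h1 h2 t u
    · obtain ⟨⟨i, j⟩, hij⟩ := a
      obtain ⟨⟨k, l⟩, hkl⟩ := b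
      simp only at h1
      subst h1
      simp only [map_mul, map_inv, FreeGroup.lift_apply_of, mul_inv_eq_one]
      exact T_rel hij hkl h t u)

omit [Finite K] in
lemma toSL_xP {n : ℕ} {i j : Fin n} (hij : i ≠ j) (t : K) : toSL n K (xP n K i j t) = SpecialLinearGroup.transvection hij t := by
  rw [xP_of hij]
  exact PresentedGroup.toGroup.of _

theorem toSL_bij {n : ℕ} (hn : 3 ≤ n) : Function.Bijective (toSL n K) :=
  bij_of_rel hn (xP_rel n) (xP_gen n) (toSL n K) (fun _ _ hij t => toSL_xP hij t)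

/-- Steinberg presentation of `SL_n`. -/
theorem pres_iso {n : ℕ} (hn : 3 ≤ n) :
    ∃ e : PresentedGroup (StRels n K) ≃* SpecialLinearGroup (Fin n) K,
      ∀ (a : {ij : Fin n × Fin n // ij.1 ≠ ij.2}) (t : K),
        ((e (PresentedGroup.of (a, t)) : Matrix (Fin n) (Fin n) K)) = Matrix.transvection a.1.1 a.1.2 t := by
  refine ⟨MulEquiv.ofBijective (toSL n K) (toSL_bij hn), fun a t => ?_⟩
  obtain ⟨⟨i, j⟩, hij⟩ := a
  have := toSL_xP (K := K) hij t
  rw [xP_of hij] at this
  simp only [MulEquiv.ofBijective_apply, this]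
  rfl

/-- The universal property. -/
theorem lift_of_rel {n : ℕ} (hn : 3 ≤ n) {Γ : Type*} [Group Γ] {y : Fin n → Fin n → K → Γ} (R : Rel y) :
    ∃ τ : SpecialLinearGroup (Fin n) K →* Γ, ∀ (i j : Fin n) (hij : i ≠ j) (t : K), τ (SpecialLinearGroup.transvection hij t) = y i j t := by
  let ψ : PresentedGroup (StRels n K) →* Γ := PresentedGroup.toGroup (f := fun p : ({ij : Fin n × Fin n // ij.1 ≠ ij.2} × K) => y p.1.1.1 p.1.1.2 p.2) (by
    rintro r ((⟨a, t, u, rfl⟩ | ⟨a, b, t, u, h1, h2, rfl⟩) | ⟨a, b, h, t, u, h1, rfl⟩)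
    · simp only [map_mul, map_inv, FreeGroup.lift_apply_of, mul_inv_eq_one]
      exact R.add a.2 t u
    · simp only [map_mul, map_inv, FreeGroup.lift_apply_of, mul_inv_eq_iff_eq_mul, one_mul]
      exact R.comm a.2 b.2 h1 h2 t u
    · obtain ⟨⟨i, j⟩, hij⟩ := a
      obtain ⟨⟨k, l⟩, hkl⟩ := b
      simp only at h1
      subst h1
      simp only [map_mul, map_inv, FreeGroup.lift_apply_of, mul_inv_eq_one]
      exact R.rel hij hkl h t u)
  let e : PresentedGroup (StRels n K) ≃* SpecialLinearGroup (Fin n) K := MulEquiv.ofBijective (toSL n K) (toSL_bij hn)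
  refine ⟨ψ.comp e.symm.toMonoidHom, fun i j hij t => ?_⟩
  have h1 : e (xP n K i j t) = SpecialLinearGroup.transvection hij t := toSL_xP hij t
  have h2 : e.symm (SpecialLinearGroup.transvection hij t) = xP n K i j t := by rw [← h1]; simp
  simp only [MonoidHom.comp_apply, MulEquiv.coe_toMonoidHom, h2]
  rw [xP_of hij]
  exact PresentedGroup.toGroup.of _

end Cfsg.Agent.Lib.StN
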