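/-
Lifting `SL_n` into central extensions: `SL_n(K)` is its own universal central extension, outside the exceptions.
-/
import Cfsg.Agent.Lib.StN.Final

set_option autoImplicit false

open scoped commutatorElement

namespace Cfsg.Agent.Lib.StN

section central

variable {Γ L : Type*} [Group Γ] [Group L]

lemma cmL {a : Γ} (ha : ∀ w, w * a = a * w) (x y : Γ) : ⁅x * a, y⁆ = ⁅x, y⁆ := by
  simp only [commutatorElement_def, mul_inv_rev]
  have : x * a * y * (a⁻¹ * x⁻¹) * y⁻¹ = x * (a * y * a⁻¹) * x⁻¹ * y⁻¹ := by group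
  rw [this, ← ha y, mul_inv_cancel_right]

lemma cmR {a : Γ} (ha : ∀ w, w * a = a * w) (x y : Γ) : ⁅x, y * a⁆ = ⁅x, y⁆ := by
  simp only [commutatorElement_def, mul_inv_rev]
  have e := ha x⁻¹
  have : x * (y * a) * x⁻¹ * (a⁻¹ * y⁻¹) = x * y * (a * x⁻¹) * a⁻¹ * y⁻¹ := by group
  rw [this, ← e]; group

lemma comm_eq (σ : Γ →* L) (hc : σ.ker ≤ Subgroup.center Γ) {a a' b b' : Γ} (h1 : σ a = σ a') (h2 : σ b = σ b') :
    ⁅a, b⁆ = ⁅a', b'⁆ := by
  have hz : a⁻¹ * a' ∈ σ.ker := by rw [MonoidHom.mem_ker, map_mul, map_inv, h1, inv_mul_cancel]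
  have hw : b⁻¹ * b' ∈ σ.ker := by rw [MonoidHom.mem_ker, map_mul, map_inv, h2, inv_mul_cancel]
  have e1 := cmL (Subgroup.mem_center_iff.1 (hc hz)) a b'
  have e2 := cmR (Subgroup.mem_center_iff.1 (hc hw)) a b
  rw [mul_inv_cancel_left] at e1 e2
  rw [← e2, e1]

lemma comm_comm_trivial {a c d : Γ} (h1 : ⁅a, d⁆ ∈ Subgroup.center Γ) (h2 : ⁅c, d⁆ ∈ Subgroup.center Γ) :
    ⁅⁅a, c⁆, d⁆ = 1 := by
  rw [commutatorElement_eq_one_iff_mul_comm]
  have e1 : d * a * d⁻¹ = a * ⁅a, d⁆⁻¹ := by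
    have := (Subgroup.mem_center_iff.1 (Subgroup.inv_mem _ h1)) a
    rw [this, commutatorElement_inv, commutatorElement_def]; group
  have e2 : d * c * d⁻¹ = c * ⁅c, d⁆⁻¹ := by
    have := (Subgroup.mem_center_iff.1 (Subgroup.inv_mem _ h2)) c
    rw [this, commutatorElement_inv, commutatorElement_def]; group
  have e3 : d * ⁅a, c⁆ * d⁻¹ = ⁅d * a * d⁻¹, d * c * d⁻¹⁆ := by
    simp only [commutatorElement_def]; group
  rw [e1, e2, cmL (Subgroup.mem_center_iff.1 (Subgroup.inv_mem _ h1)),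
    cmR (Subgroup.mem_center_iff.1 (Subgroup.inv_mem _ h2))] at e3
  calc ⁅a, c⁆ * d = (d * ⁅a, c⁆ * d⁻¹) * d := by rw [e3]
    _ = d * ⁅a, c⁆ := by group

/-- A Hall-Witt type identity. -/
lemma hall_witt {a b c : Γ} (hac : ⁅a, c⁆ = 1) (h1 : ⁅⁅a, b⁆, ⁅b, c⁆⁆ = 1) (h2 : ⁅⁅⁅a, b⁆, c⁆, ⁅b, c⁆⁆ = 1) :
    ⁅⁅a, b⁆, c⁆ = ⁅a, ⁅b, c⁆⁆ := by
  rw [commutatorElement_eq_one_iff_mul_comm] at hac h1 h2
  set y := ⁅a, b⁆ with hy
  set v := ⁅b, c⁆ with hv
  have hyb : a * b * a⁻¹ = y * b := by rw [hy, commutatorElement_def]; group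
  have hvc : b * c * b⁻¹ = v * c := by rw [hv, commutatorElement_def]; group
  have hca : a * c * a⁻¹ = c := by rw [hac]; group
  have e1 : a * v * a⁻¹ = (a * b * a⁻¹) * (a * c * a⁻¹) * (a * b * a⁻¹)⁻¹ * (a * c * a⁻¹)⁻¹ := by
    rw [hv, commutatorElement_def]; group
  have e2 : a * v * a⁻¹ = v * ⁅y, c⁆ := by
    rw [e1, hyb, hca]
    have : y * b * c * (y * b)⁻¹ * c⁻¹ = y * (b * c * b⁻¹) * y⁻¹ * c⁻¹ := by group
    rw [this, hvc, commutatorElement_def]
    have e3 : y * (v * c) * y⁻¹ * c⁻¹ = (y * v) * c * y⁻¹ * c⁻¹ := by group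
    rw [e3, h1]; group
  calc ⁅y, c⁆ = v * ⁅y, c⁆ * v⁻¹ := by
        rw [← h2]; group
    _ = ⁅a, v⁆ := by rw [← e2, commutatorElement_def]

/-- Additive functions invariant under a non-trivial scaling vanish. -/
lemma add_inv_trivial {K : Type*} [Field K] {lam : K} (hlam : lam ≠ 1) (b : K → Γ) (hadd : ∀ s s', b (s + s') = b s * b s')
    (hinv : ∀ s, b (lam * s) = b s) (t : K) : b t = 1 := by
  have h0 : lam - 1 ≠ 0 := sub_ne_zero.2 hlam
  have e : lam * ((lam - 1)⁻¹ * t) = t + (lam - 1)⁻¹ * t := by field_simp; ring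
  have := hinv ((lam - 1)⁻¹ * t)
  rw [e, hadd] at this
  exact mul_eq_right.1 this

end central

section SLn

variable {K : Type*} [Field K] {n : ℕ}

/-- The total transvection. -/
noncomputable def Tt (i j : Fin n) (t : K) : Matrix.SpecialLinearGroup (Fin n) K :=
  if h : i ≠ j then Matrix.SpecialLinearGroup.transvection h t else 1

lemma Tt_of {i j : Fin n} (h : i ≠ j) (t : K) : Tt i j t = Matrix.SpecialLinearGroup.transvection h t := dif_pos h

lemma Tt_rel : Rel (Tt (K := K) (n := n)) where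
  add := fun hij t u => by rw [Tt_of hij, Tt_of hij, Tt_of hij]; exact T_add hij t u
  comm := fun hij hkl hil hjk t u => by rw [Tt_of hij, Tt_of hkl]; exact T_comm hij hkl hil hjk t u
  rel := fun hij hjk hik t u => by rw [Tt_of hij, Tt_of hjk, Tt_of hik]; exact T_rel hij hjk hik t u

/-- The diagonal element of `SL_n`. -/
noncomputable def Dg (d : Fin n → K) (hp : ∏ i, d i = 1) : Matrix.SpecialLinearGroup (Fin n) K :=
  ⟨Matrix.diagonal d, by rw [Matrix.det_diagonal, hp]⟩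

lemma Dg_Tt {d : Fin n → K} (hd : ∀ i, d i ≠ 0) (hp : ∏ i, d i = 1) {i j : Fin n} (hij : i ≠ j) (t : K) :
    SemiconjBy (Dg d hp) (Tt i j t) (Tt i j (d i * (d j)⁻¹ * t)) := by
  unfold SemiconjBy
  rw [Tt_of hij, Tt_of hij]
  apply Subtype.ext
  show Matrix.diagonal d * (Matrix.SpecialLinearGroup.transvection hij t).1 =
    (Matrix.SpecialLinearGroup.transvection hij _).1 * Matrix.diagonal d
  rw [Matrix.SpecialLinearGroup.transvection_coe, Matrix.SpecialLinearGroup.transvection_coe]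
  ext a b
  simp only [Matrix.diagonal_mul, Matrix.mul_diagonal, Matrix.add_apply, Matrix.one_apply, Matrix.single_apply]
  have hj := hd j
  by_cases h1 : a = b
  · subst h1
    by_cases h2 : i = a ∧ j = a
    · exact absurd (h2.1.trans h2.2.symm) hij
    · simp [h2]
  · by_cases h2 : i = a ∧ j = b
    · obtain ⟨rfl, rfl⟩ := h2
      simp [h1]
      field_simp
    · simp [h1, h2]

end SLn

section lift

variable {K Γ L : Type*} [Field K] [Group Γ] [Group L] {n : ℕ}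

/-- The context of the lift. -/
structure LC (σ : Γ →* L) (θ : Matrix.SpecialLinearGroup (Fin n) K →* L)
    (ℓ : Matrix.SpecialLinearGroup (Fin n) K → Γ) : Prop where
  hc : σ.ker ≤ Subgroup.center Γ
  hℓ : ∀ g, σ (ℓ g) = θ g

namespace LC

variable {σ : Γ →* L} {θ : Matrix.SpecialLinearGroup (Fin n) K →* L}
  {ℓ : Matrix.SpecialLinearGroup (Fin n) K → Γ} (C : LC σ θ ℓ)
include C

lemma lift_comm {a b : Γ} {g g' : Matrix.SpecialLinearGroup (Fin n) K} (ha : σ a = θ g) (hb : σ b = θ g') :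
    ⁅a, b⁆ = ⁅ℓ g, ℓ g'⁆ :=
  comm_eq σ C.hc (ha.trans (C.hℓ g).symm) (hb.trans (C.hℓ g').symm)

lemma central {g g' : Matrix.SpecialLinearGroup (Fin n) K} (h : g * g' = g' * g) :
    ⁅ℓ g, ℓ g'⁆ ∈ Subgroup.center Γ := by
  apply C.hc
  rw [MonoidHom.mem_ker, map_commutatorElement, C.hℓ, C.hℓ, ← map_commutatorElement,
    commutatorElement_eq_one_iff_mul_comm.2 h, map_one]

lemma sig_comm (g g' : Matrix.SpecialLinearGroup (Fin n) K) : σ ⁅ℓ g, ℓ g'⁆ = θ ⁅g, g'⁆ := by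
  rw [map_commutatorElement, C.hℓ, C.hℓ, map_commutatorElement]

omit C in
lemma Tt_comm {i j k : Fin n} (hij : i ≠ j) (hjk : j ≠ k) (hik : i ≠ k) (t u : K) :
    ⁅Tt i j t, Tt j k u⁆ = Tt i k (t * u) := by
  rw [commutatorElement_def]
  exact Tt_rel.rel hij hjk hik t u

/-- An extra index makes commuting lifts commute. -/
lemma cp_extra {i j k l p : Fin n} (hij : i ≠ j) (hkl : k ≠ l) (hil : i ≠ l) (hjk : j ≠ k)
    (hpi : p ≠ i) (hpj : p ≠ j) (hpk : p ≠ k) (hpl : p ≠ l) (t u : K) :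
    ⁅ℓ (Tt i j t), ℓ (Tt k l u)⁆ = 1 := by
  have e : σ ⁅ℓ (Tt i p t), ℓ (Tt p j (1 : K))⁆ = θ (Tt i j t) := by
    rw [C.sig_comm, Tt_comm hpi.symm hpj hij, mul_one]
  have e2 := C.lift_comm e (C.hℓ (Tt k l u))
  rw [← e2]
  apply comm_comm_trivial
  · exact C.central (Tt_rel.comm hpi.symm hkl hil hpk _ _)
  · exact C.central (Tt_rel.comm hpj hkl hpl hjk _ _)

/-- A diagonal element fixing one root and moving the other makes commuting lifts commute. -/
lemma cp_torus {d : Fin n → K} (hd : ∀ i, d i ≠ 0) (hp : ∏ i, d i = 1) {i j k l : Fin n}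
    (hij : i ≠ j) (hkl : k ≠ l) (hil : i ≠ l) (hjk : j ≠ k) (hχ : d k = d l) (hne : d i ≠ d j) (t u : K) :
    ⁅ℓ (Tt i j t), ℓ (Tt k l u)⁆ = 1 := by
  have hlam : d i * (d j)⁻¹ ≠ 1 := fun e => hne (by
    have := hd j
    field_simp at e
    exact e)
  refine add_inv_trivial hlam (fun s => ⁅ℓ (Tt i j s), ℓ (Tt k l u)⁆) ?_ ?_ t
  · intro s s'
    have e1 : σ (ℓ (Tt i j s) * ℓ (Tt i j s')) = θ (Tt i j (s + s')) := by
      rw [map_mul, C.hℓ, C.hℓ, ← map_mul, Tt_rel.add hij]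
    have e2 := C.lift_comm e1 (C.hℓ (Tt k l u))
    rw [← e2]
    have hz := C.central (Tt_rel.comm hij hkl hil hjk s' u)
    have e3 : ⁅ℓ (Tt i j s) * ℓ (Tt i j s'), ℓ (Tt k l u)⁆ =
        ℓ (Tt i j s) * ⁅ℓ (Tt i j s'), ℓ (Tt k l u)⁆ * (ℓ (Tt i j s))⁻¹ * ⁅ℓ (Tt i j s), ℓ (Tt k l u)⁆ := by
      simp only [commutatorElement_def]; group
    rw [e3, Subgroup.mem_center_iff.1 hz, mul_inv_cancel_right, Subgroup.mem_center_iff.1 hz]
  · intro s
    set g := ℓ (Dg d hp) with hg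
    have e1 : σ (g * ℓ (Tt i j s) * g⁻¹) = θ (Tt i j (d i * (d j)⁻¹ * s)) := by
      rw [map_mul, map_mul, map_inv, hg, C.hℓ, C.hℓ, ← map_inv, ← map_mul, ← map_mul,
        (Dg_Tt hd hp hij s).eq, mul_inv_cancel_right]
    have e2 : σ (g * ℓ (Tt k l u) * g⁻¹) = θ (Tt k l u) := by
      rw [map_mul, map_mul, map_inv, hg, C.hℓ, C.hℓ, ← map_inv, ← map_mul, ← map_mul,
        (Dg_Tt hd hp hkl u).eq, mul_inv_cancel_right, hχ, mul_inv_cancel₀ (hd l), one_mul]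
    rw [← C.lift_comm e1 e2]
    have e3 : ⁅g * ℓ (Tt i j s) * g⁻¹, g * ℓ (Tt k l u) * g⁻¹⁆ = g * ⁅ℓ (Tt i j s), ℓ (Tt k l u)⁆ * g⁻¹ := by
      simp only [commutatorElement_def]; group
    rw [e3, Subgroup.mem_center_iff.1 (C.central (Tt_rel.comm hij hkl hil hjk s u)), mul_inv_cancel_right]

/-- Additivity in the first variable. -/
lemma b_add_left {i j k l : Fin n} (hij : i ≠ j) (hkl : k ≠ l) (hil : i ≠ l) (hjk : j ≠ k) (s s' u : K) :
    ⁅ℓ (Tt i j (s + s')), ℓ (Tt k l u)⁆ = ⁅ℓ (Tt i j s), ℓ (Tt k l u)⁆ * ⁅ℓ (Tt i j s'), ℓ (Tt k l u)⁆ := by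
  have e1 : σ (ℓ (Tt i j s) * ℓ (Tt i j s')) = θ (Tt i j (s + s')) := by
    rw [map_mul, C.hℓ, C.hℓ, ← map_mul, Tt_rel.add hij]
  have e2 := C.lift_comm e1 (C.hℓ (Tt k l u))
  rw [← e2]
  have hz := C.central (Tt_rel.comm hij hkl hil hjk s' u)
  have e3 : ⁅ℓ (Tt i j s) * ℓ (Tt i j s'), ℓ (Tt k l u)⁆ =
      ℓ (Tt i j s) * ⁅ℓ (Tt i j s'), ℓ (Tt k l u)⁆ * (ℓ (Tt i j s))⁻¹ * ⁅ℓ (Tt i j s), ℓ (Tt k l u)⁆ := by
    simp only [commutatorElement_def]; group
  rw [e3, Subgroup.mem_center_iff.1 hz, mul_inv_cancel_right, Subgroup.mem_center_iff.1 hz]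

/-- Additivity in the second variable. -/
lemma b_add_right {i j k l : Fin n} (hij : i ≠ j) (hkl : k ≠ l) (hil : i ≠ l) (hjk : j ≠ k) (s u u' : K) :
    ⁅ℓ (Tt i j s), ℓ (Tt k l (u + u'))⁆ = ⁅ℓ (Tt i j s), ℓ (Tt k l u)⁆ * ⁅ℓ (Tt i j s), ℓ (Tt k l u')⁆ := by
  have e1 : σ (ℓ (Tt k l u) * ℓ (Tt k l u')) = θ (Tt k l (u + u')) := by
    rw [map_mul, C.hℓ, C.hℓ, ← map_mul, Tt_rel.add hkl]
  have e2 := C.lift_comm (C.hℓ (Tt i j s)) e1
  rw [← e2]
  have hz := C.central (Tt_rel.comm hij hkl hil hjk s u')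
  have e3 : ⁅ℓ (Tt i j s), ℓ (Tt k l u) * ℓ (Tt k l u')⁆ =
      ⁅ℓ (Tt i j s), ℓ (Tt k l u)⁆ * (ℓ (Tt k l u) * ⁅ℓ (Tt i j s), ℓ (Tt k l u')⁆ * (ℓ (Tt k l u))⁻¹) := by
    simp only [commutatorElement_def]; group
  rw [e3, Subgroup.mem_center_iff.1 hz, mul_inv_cancel_right]

/-- The case of `SL_4(3)`. -/
lemma cp_perm [Fintype K] (hK : Fintype.card K = 3) {i j k l : Fin n} (hij : i ≠ j) (hkl : k ≠ l) (hil : i ≠ l) (hjk : j ≠ k)
    (hik : i ≠ k) (hjl : j ≠ l) (t u : K) : ⁅ℓ (Tt i j t), ℓ (Tt k l u)⁆ = 1 := by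
  set b : K → K → Γ := fun t u => ⁅ℓ (Tt i j t), ℓ (Tt k l u)⁆ with hb
  have hone : (1 : K) ≠ 0 := one_ne_zero
  let P : Matrix.SpecialLinearGroup (Fin n) K := w Tt i k (1 : K) * w Tt j l (1 : K)
  have p1 : ∀ t : K, SemiconjBy P (Tt i j t) (Tt k l t) := by
    intro t
    have := (Tt_rel.W2 hik hkl hil hone _).mul_left (Tt_rel.W3 hjl hij hil hone t)
    rwa [show -(1 : K)⁻¹ * (-1 * t) = t by simp] at this
  have p2 : ∀ t : K, SemiconjBy P (Tt k l t) (Tt i j t) := by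
    intro t
    have := (Tt_rel.W1 hik hjk.symm hij hone _).mul_left (Tt_rel.W4 hjl hjk.symm hkl hone t)
    rwa [show (1 : K) * ((1 : K)⁻¹ * t) = t by simp] at this
  have hcen : ∀ t u, b t u ∈ Subgroup.center Γ := fun t u => C.central (Tt_rel.comm hij hkl hil hjk t u)
  have hsw : ∀ t u, b t u = (b u t)⁻¹ := by
    intro t u
    set g := ℓ P with hg
    have e1 : σ (g * ℓ (Tt i j t) * g⁻¹) = θ (Tt k l t) := by
      rw [map_mul, map_mul, map_inv, hg, C.hℓ, C.hℓ, ← map_inv, ← map_mul, ← map_mul, (p1 t).eq, mul_inv_cancel_right]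
    have e2 : σ (g * ℓ (Tt k l u) * g⁻¹) = θ (Tt i j u) := by
      rw [map_mul, map_mul, map_inv, hg, C.hℓ, C.hℓ, ← map_inv, ← map_mul, ← map_mul, (p2 u).eq, mul_inv_cancel_right]
    have e3 : ⁅g * ℓ (Tt i j t) * g⁻¹, g * ℓ (Tt k l u) * g⁻¹⁆ = g * b t u * g⁻¹ := by
      simp only [hb, commutatorElement_def]; group
    have e4 := C.lift_comm e1 e2
    rw [e3, Subgroup.mem_center_iff.1 (hcen t u), mul_inv_cancel_right] at e4
    rw [e4, hb]
    simp only [commutatorElement_inv]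
  have hal : ∀ s s' u, b (s + s') u = b s u * b s' u := fun s s' u => C.b_add_left hij hkl hil hjk s s' u
  have har : ∀ s u u', b s (u + u') = b s u * b s u' := fun s u u' => C.b_add_right hij hkl hil hjk s u u'
  have h0l : ∀ u, b 0 u = 1 := fun u => by
    have := hal 0 0 u
    rw [add_zero] at this
    exact mul_eq_left.1 this.symm
  have h0r : ∀ s, b s 0 = 1 := fun s => by
    have := har s 0 0
    rw [add_zero] at this
    exact mul_eq_left.1 this.symm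
  have h3 : ∀ t : K, t + t + t = 0 := by
    intro t
    have : ((Fintype.card K : ℕ) : K) = 0 := FiniteField.cast_card_eq_zero K
    rw [hK] at this
    have e : t + t + t = ((3 : ℕ) : K) * t := by push_cast; ring
    rw [e, this, zero_mul]
  have hdiag : ∀ t, b t t = 1 := by
    intro t
    have e1 : b t t * b t t = 1 := by
      have := hsw t t
      nth_rewrite 1 [this]
      exact inv_mul_cancel _
    have e2 := hal (t + t) t t
    rw [h3, h0l, hal, e1, one_mul] at e2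
    exact e2.symm
  by_cases ht : t = 0
  · rw [ht]; exact h0l u
  by_cases hu : u = 0
  · rw [hu]; exact h0r t
  have e1 : t ^ 2 = 1 := by
    have := FiniteField.pow_card_sub_one_eq_one t ht
    rwa [hK] at this
  have e2 : u ^ 2 = 1 := by
    have := FiniteField.pow_card_sub_one_eq_one u hu
    rwa [hK] at this
  have e3 : (u - t) * (u + t) = 0 := by linear_combination e2 - e1
  rcases mul_eq_zero.1 e3 with e4 | e4
  · have : u = t := sub_eq_zero.1 e4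
    rw [this]; exact hdiag t
  · have : u = -t := eq_neg_of_add_eq_zero_left e4
    have e5 := har t t (-t)
    rw [add_neg_cancel, h0r, hdiag, one_mul] at e5
    rw [this]; exact e5.symm

omit C in
/-- Products of diagonal entries. -/
lemma prod_one_point (p : Fin n) (A B : K) :
    ∏ x : Fin n, (if x = p then A else B) = A * B ^ (n - 1) := by
  rw [← Finset.mul_prod_erase Finset.univ _ (Finset.mem_univ p), if_pos rfl]
  congr 1
  rw [Finset.prod_congr rfl (g := fun _ => B) (fun x hx => if_neg (Finset.mem_erase.1 hx).1), Finset.prod_const,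
    Finset.card_erase_of_mem (Finset.mem_univ _), Finset.card_univ, Fintype.card_fin]

/-- All commuting pairs of root elements lift to commuting elements. -/
theorem hB [Fintype K] (h3 : n = 3 → ∃ a : K, a ≠ 0 ∧ a ^ 3 ≠ 1) (h4 : n = 4 → (∃ a : K, a ≠ 0 ∧ a ^ 2 ≠ 1) ∨ Fintype.card K = 3)
    (hn : 3 ≤ n) {i j k l : Fin n} (hij : i ≠ j) (hkl : k ≠ l) (hil : i ≠ l) (hjk : j ≠ k) (t u : K) :
    ⁅ℓ (Tt i j t), ℓ (Tt k l u)⁆ = 1 := by
  classical
  by_cases hp : ∃ p, p ≠ i ∧ p ≠ j ∧ p ≠ k ∧ p ≠ l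
  · obtain ⟨p, h1, h2, h3, h4⟩ := hp
    exact C.cp_extra hij hkl hil hjk h1 h2 h3 h4 t u
  push Not at hp
  have huniv : (Finset.univ : Finset (Fin n)) ⊆ {i, j, k, l} := by
    intro p _
    by_cases h1 : p = i
    · simp [h1]
    by_cases h2 : p = j
    · simp [h2]
    by_cases h3 : p = k
    · simp [h3]
    simp [hp p h1 h2 h3]
  have hcard := Finset.card_le_card huniv
  rw [Finset.card_univ, Fintype.card_fin] at hcard
  have hle4 : ({i, j, k, l} : Finset (Fin n)).card ≤ 4 := Finset.card_le_four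
  have hcases : n = 3 ∨ n = 4 := by omega
  have hdist : n = 4 → i ≠ k ∧ j ≠ l := by
    intro hn4
    have hd : ({i, j, k, l} : Finset (Fin n)).card = 4 := by omega
    constructor
    · rintro rfl
      have : ({i, j, i, l} : Finset (Fin n)).card ≤ 3 := by
        have h₁ : ({i, j, i, l} : Finset (Fin n)) ⊆ {i, j, l} := by
          intro x hx
          simp only [Finset.mem_insert, Finset.mem_singleton] at hx ⊢
          rcases hx with h | h | h | h
          · exact Or.inl h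
          · exact Or.inr (Or.inl h)
          · exact Or.inl h
          · exact Or.inr (Or.inr h)
        exact (Finset.card_le_card h₁).trans Finset.card_le_three
      omega
    · rintro rfl
      have : ({i, j, k, j} : Finset (Fin n)).card ≤ 3 := by
        have h₁ : ({i, j, k, j} : Finset (Fin n)) ⊆ {i, j, k} := by
          intro x hx
          simp only [Finset.mem_insert, Finset.mem_singleton] at hx ⊢
          rcases hx with h | h | h | h
          · exact Or.inl h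
          · exact Or.inr (Or.inl h)
          · exact Or.inr (Or.inr h)
          · exact Or.inr (Or.inl h)
        exact (Finset.card_le_card h₁).trans Finset.card_le_three
      omega
  rcases hcases with rfl | rfl
  · -- `n = 3`
    obtain ⟨a, ha0, ha3⟩ := h3 rfl
    have hainv : a⁻¹ ≠ 0 := inv_ne_zero ha0
    have hne : a ≠ (a⁻¹) ^ 2 := by
      intro e
      apply ha3
      have : a ^ 3 = a ^ 2 * a := by ring
      rw [this]
      nth_rewrite 2 [e]
      field_simp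
    have hne' : a ≠ (a ^ 2)⁻¹ := by rwa [← inv_pow]
    by_cases hki : k = i
    · subst hki
      by_cases hlj : l = j
      · subst hlj
        obtain ⟨c, h1, h2⟩ := third_index hn k l
        exact absurd (hp c h1 h2 h1) h2
      · refine C.cp_torus (d := fun x => if x = j then (a⁻¹) ^ 2 else a) ?_ ?_ hij hkl hil hjk ?_ ?_ t u
        · intro x; split_ifs <;> simp [ha0]
        · rw [prod_one_point]; simp; field_simp
        · simp [Ne.symm hjk, hlj]
        · simp [Ne.symm hjk]; exact hne'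
    · have hlj : l = j := by
        by_contra hlj
        have : ({i, j, k, l} : Finset (Fin 3)).card = 4 := by
          rw [Finset.card_insert_of_notMem (by simp [hij, Ne.symm hki, hil]), Finset.card_insert_of_notMem (by simp [hjk, Ne.symm hlj]),
            Finset.card_pair hkl]
        have h5 := Finset.card_le_univ ({i, j, k, l} : Finset (Fin 3))
        rw [Fintype.card_fin] at h5
        omega
      subst hlj
      refine C.cp_torus (d := fun x => if x = i then (a⁻¹) ^ 2 else a) ?_ ?_ hij hkl hil hjk ?_ ?_ t u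
      · intro x; split_ifs <;> simp [ha0]
      · rw [prod_one_point]; simp; field_simp
      · simp [hki, Ne.symm hil]
      · simp [Ne.symm hil]; exact Ne.symm hne'
  · -- `n = 4`
    obtain ⟨hik, hjl⟩ := hdist rfl
    rcases h4 rfl with ⟨a, ha0, ha2⟩ | hK
    · have hainv : a⁻¹ ≠ 0 := inv_ne_zero ha0
      refine C.cp_torus (d := fun x => if x = i then a else if x = j then a⁻¹ else 1) ?_ ?_ hij hkl hil hjk ?_ ?_ t u
      · intro x; split_ifs <;> simp [ha0]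
      · rw [Finset.prod_eq_mul i j hij (fun c _ hc => by simp [hc.1, hc.2]) (by simp) (by simp)]
        simp [Ne.symm hij, ha0]
      · simp [Ne.symm hik, Ne.symm hjk, Ne.symm hil, Ne.symm hjl]
      · simp [Ne.symm hij]
        intro e
        apply ha2
        have : a ^ 2 = a * a := by ring
        rw [this]
        nth_rewrite 1 [e]
        field_simp
    · exact C.cp_perm hK hij hkl hil hjk hik hjl t u

/-- Changing the middle index. -/
lemma F_HW (hB' : ∀ {i j k l : Fin n}, i ≠ j → k ≠ l → i ≠ l → j ≠ k → ∀ t u : K, ⁅ℓ (Tt i j t), ℓ (Tt k l u)⁆ = 1)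
    {i j j' k : Fin n} (hij : i ≠ j) (hjk : j ≠ k) (hik : i ≠ k) (hij' : i ≠ j') (hj'k : j' ≠ k) (hj'j : j' ≠ j) (t s u : K) :
    ⁅ℓ (Tt i j (t * s)), ℓ (Tt j k u)⁆ = ⁅ℓ (Tt i j' t), ℓ (Tt j' k (s * u))⁆ := by
  have e1 : σ ⁅ℓ (Tt i j' t), ℓ (Tt j' j s)⁆ = θ (Tt i j (t * s)) := by
    rw [C.sig_comm, Tt_comm hij' hj'j hij]
  have e2 : σ ⁅ℓ (Tt j' j s), ℓ (Tt j k u)⁆ = θ (Tt j' k (s * u)) := by
    rw [C.sig_comm, Tt_comm hj'j hjk hj'k]
  have hac := hB' hij' hjk hik hj'j t u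
  have h1 : ⁅⁅ℓ (Tt i j' t), ℓ (Tt j' j s)⁆, ⁅ℓ (Tt j' j s), ℓ (Tt j k u)⁆⁆ = 1 := by
    rw [C.lift_comm e1 e2]
    exact hB' hij hj'k hik hj'j.symm _ _
  have e3 : σ ⁅⁅ℓ (Tt i j' t), ℓ (Tt j' j s)⁆, ℓ (Tt j k u)⁆ = θ (Tt i k (t * s * u)) := by
    rw [map_commutatorElement, e1, C.hℓ, ← map_commutatorElement, Tt_comm hij hjk hik]
  have h2 : ⁅⁅⁅ℓ (Tt i j' t), ℓ (Tt j' j s)⁆, ℓ (Tt j k u)⁆, ⁅ℓ (Tt j' j s), ℓ (Tt j k u)⁆⁆ = 1 := by
    rw [C.lift_comm e3 e2]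
    exact hB' hik hj'k hik hj'k.symm _ _
  have hw := hall_witt hac h1 h2
  rw [← C.lift_comm e1 (C.hℓ (Tt j k u)), hw, C.lift_comm (C.hℓ (Tt i j' t)) e2]

lemma F_sig {i j k : Fin n} (hij : i ≠ j) (hjk : j ≠ k) (hik : i ≠ k) (s v : K) :
    σ ⁅ℓ (Tt i j s), ℓ (Tt j k v)⁆ = θ (Tt i k (s * v)) := by
  rw [C.sig_comm, Tt_comm hij hjk hik]

lemma F_add (hB' : ∀ {i j k l : Fin n}, i ≠ j → k ≠ l → i ≠ l → j ≠ k → ∀ t u : K, ⁅ℓ (Tt i j t), ℓ (Tt k l u)⁆ = 1)
    {i j k : Fin n} (hij : i ≠ j) (hjk : j ≠ k) (hik : i ≠ k) (s s' v : K) :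
    ⁅ℓ (Tt i j (s + s')), ℓ (Tt j k v)⁆ = ⁅ℓ (Tt i j s), ℓ (Tt j k v)⁆ * ⁅ℓ (Tt i j s'), ℓ (Tt j k v)⁆ := by
  have e1 : σ (ℓ (Tt i j s) * ℓ (Tt i j s')) = θ (Tt i j (s + s')) := by
    rw [map_mul, C.hℓ, C.hℓ, ← map_mul, Tt_rel.add hij]
  rw [← C.lift_comm e1 (C.hℓ (Tt j k v))]
  have hFF : ⁅ℓ (Tt i j s'), ℓ (Tt j k v)⁆ * ⁅ℓ (Tt i j s), ℓ (Tt j k v)⁆ =
      ⁅ℓ (Tt i j s), ℓ (Tt j k v)⁆ * ⁅ℓ (Tt i j s'), ℓ (Tt j k v)⁆ := by
    apply commutatorElement_eq_one_iff_mul_comm.1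
    rw [C.lift_comm (C.F_sig hij hjk hik s' v) (C.F_sig hij hjk hik s v)]
    exact hB' hik hik hik hik.symm _ _
  have hy : ℓ (Tt i j s) * ⁅ℓ (Tt i j s'), ℓ (Tt j k v)⁆ = ⁅ℓ (Tt i j s'), ℓ (Tt j k v)⁆ * ℓ (Tt i j s) := by
    apply commutatorElement_eq_one_iff_mul_comm.1
    rw [C.lift_comm (C.hℓ (Tt i j s)) (C.F_sig hij hjk hik s' v)]
    exact hB' hij hik hik hij.symm _ _
  have e3 : ⁅ℓ (Tt i j s) * ℓ (Tt i j s'), ℓ (Tt j k v)⁆ =
      ℓ (Tt i j s) * ⁅ℓ (Tt i j s'), ℓ (Tt j k v)⁆ * (ℓ (Tt i j s))⁻¹ * ⁅ℓ (Tt i j s), ℓ (Tt j k v)⁆ := by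
    simp only [commutatorElement_def]; group
  rw [e3, hy, mul_inv_cancel_right, hFF]

/-- The torus argument for the main relation. -/
lemma F_torus (hB' : ∀ {i j k l : Fin n}, i ≠ j → k ≠ l → i ≠ l → j ≠ k → ∀ t u : K, ⁅ℓ (Tt i j t), ℓ (Tt k l u)⁆ = 1)
    {d : Fin n → K} (hd : ∀ i, d i ≠ 0) (hp : ∏ i, d i = 1) {i j k : Fin n} (hij : i ≠ j) (hjk : j ≠ k) (hik : i ≠ k)
    (hχ : d j = d k) (hne : d i ≠ d j) (t u : K) :
    ⁅ℓ (Tt i j t), ℓ (Tt j k u)⁆ = ⁅ℓ (Tt i j (t * u)), ℓ (Tt j k 1)⁆ := by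
  have hlam : d i * (d j)⁻¹ ≠ 1 := fun e => hne (by
    have := hd j
    field_simp at e
    exact e)
  set F : K → K → Γ := fun s v => ⁅ℓ (Tt i j s), ℓ (Tt j k v)⁆ with hF
  have hσF : ∀ s v, σ (F s v) = θ (Tt i k (s * v)) := fun s v => C.F_sig hij hjk hik s v
  have hFF : ∀ s v s' v', F s v * F s' v' = F s' v' * F s v := by
    intro s v s' v'
    apply commutatorElement_eq_one_iff_mul_comm.1
    rw [C.lift_comm (hσF s v) (hσF s' v')]
    exact hB' hik hik hik hik.symm _ _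
  have hFadd : ∀ s s' v, F (s + s') v = F s v * F s' v := fun s s' v => C.F_add hB' hij hjk hik s s' v
  set D : K → Γ := fun s => F s u * (F (s * u) 1)⁻¹ with hD
  have hD1 : D t = 1 := by
    refine add_inv_trivial hlam D ?_ ?_ t
    · intro s s'
      simp only [hD]
      rw [add_mul, hFadd, hFadd, mul_inv_rev]
      have hc : Commute (F (s * u) 1) (F s' u * (F (s' * u) 1)⁻¹) :=
        Commute.mul_right (hFF _ _ _ _) (Commute.inv_right (hFF _ _ _ _))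
      have := hc.inv_left.eq
      calc F s u * F s' u * ((F (s' * u) 1)⁻¹ * (F (s * u) 1)⁻¹) =
            F s u * ((F s' u * (F (s' * u) 1)⁻¹) * (F (s * u) 1)⁻¹) := by simp only [mul_assoc]
        _ = F s u * ((F (s * u) 1)⁻¹ * (F s' u * (F (s' * u) 1)⁻¹)) := by rw [this]
        _ = _ := by simp only [mul_assoc]
    · intro s
      set g := ℓ (Dg d hp) with hg
      have hgF : ∀ s v, g * F s v * g⁻¹ = F (d i * (d j)⁻¹ * s) v := by
        intro s v
        have e1 : σ (g * ℓ (Tt i j s) * g⁻¹) = θ (Tt i j (d i * (d j)⁻¹ * s)) := by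
          rw [map_mul, map_mul, map_inv, hg, C.hℓ, C.hℓ, ← map_inv, ← map_mul, ← map_mul,
            (Dg_Tt hd hp hij s).eq, mul_inv_cancel_right]
        have e2 : σ (g * ℓ (Tt j k v) * g⁻¹) = θ (Tt j k v) := by
          rw [map_mul, map_mul, map_inv, hg, C.hℓ, C.hℓ, ← map_inv, ← map_mul, ← map_mul,
            (Dg_Tt hd hp hjk v).eq, mul_inv_cancel_right, hχ, mul_inv_cancel₀ (hd k), one_mul]
        calc g * F s v * g⁻¹ = ⁅g * ℓ (Tt i j s) * g⁻¹, g * ℓ (Tt j k v) * g⁻¹⁆ := by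
              simp only [hF, commutatorElement_def]; group
          _ = _ := C.lift_comm e1 e2
      have hcen : D s ∈ Subgroup.center Γ := by
        apply C.hc
        rw [MonoidHom.mem_ker]
        simp only [hD, map_mul, map_inv, hσF, mul_one, mul_inv_cancel]
      have e : g * D s * g⁻¹ = D (d i * (d j)⁻¹ * s) := by
        simp only [hD]
        have : g * (F s u * (F (s * u) 1)⁻¹) * g⁻¹ = (g * F s u * g⁻¹) * (g * F (s * u) 1 * g⁻¹)⁻¹ := by group
        rw [this, hgF, hgF, mul_assoc (d i * (d j)⁻¹) s u]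
      rw [← e, Subgroup.mem_center_iff.1 hcen, mul_inv_cancel_right]
  exact mul_inv_eq_one.1 hD1

end LC

/-- A choice of a middle index. -/
noncomputable def j0 (hn : 3 ≤ n) (i k : Fin n) : Fin n := Classical.choose (third_index hn i k)

lemma j0_ne (hn : 3 ≤ n) (i k : Fin n) : j0 hn i k ≠ i ∧ j0 hn i k ≠ k := Classical.choose_spec (third_index hn i k)

/-- The lifted root elements. -/
noncomputable def Xt (hn : 3 ≤ n) (ℓ : Matrix.SpecialLinearGroup (Fin n) K → Γ) (i k : Fin n) (t : K) : Γ :=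
  ⁅ℓ (Tt i (j0 hn i k) t), ℓ (Tt (j0 hn i k) k 1)⁆

lemma fourth_index (hn : 4 ≤ n) (p q r : Fin n) : ∃ c, c ≠ p ∧ c ≠ q ∧ c ≠ r := by
  by_contra hcon
  push Not at hcon
  have h1 : (Finset.univ : Finset (Fin n)) ⊆ {p, q, r} := by
    intro c _
    by_cases hc : c = p
    · simp [hc]
    by_cases hc' : c = q
    · simp [hc']
    simp [hcon c hc hc']
  have := Finset.card_le_card h1
  rw [Finset.card_univ, Fintype.card_fin] at this
  have h2 := Finset.card_le_three (a := p) (b := q) (c := r)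
  omega

namespace LC

variable {σ : Γ →* L} {θ : Matrix.SpecialLinearGroup (Fin n) K →* L}
  {ℓ : Matrix.SpecialLinearGroup (Fin n) K → Γ} (C : LC σ θ ℓ)
include C

/-- The main relation. -/
theorem hC (hn : 3 ≤ n) (h3 : n = 3 → ∃ a : K, a ≠ 0 ∧ a ^ 3 ≠ 1)
    (hB' : ∀ {i j k l : Fin n}, i ≠ j → k ≠ l → i ≠ l → j ≠ k → ∀ t u : K, ⁅ℓ (Tt i j t), ℓ (Tt k l u)⁆ = 1)
    {i j k : Fin n} (hij : i ≠ j) (hjk : j ≠ k) (hik : i ≠ k) (t u : K) :
    ⁅ℓ (Tt i j t), ℓ (Tt j k u)⁆ = Xt hn ℓ i k (t * u) := by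
  unfold Xt
  obtain ⟨h01, h02⟩ := j0_ne hn i k
  set j₀ := j0 hn i k with hj₀
  have hother : ∀ j', j' ≠ i → j' ≠ k → j' ≠ j₀ → ∀ u' : K,
      ⁅ℓ (Tt i j' t), ℓ (Tt j' k u')⁆ = ⁅ℓ (Tt i j₀ (t * u')), ℓ (Tt j₀ k 1)⁆ := by
    intro j' h1 h2 h3 u'
    have := C.F_HW hB' h01.symm h02 hik h1.symm h2 h3 t u' 1
    rw [mul_one] at this
    exact this.symm
  by_cases hj : j = j₀
  · rw [hj] at hij hjk ⊢
    by_cases hn3 : n = 3
    · obtain ⟨a, ha0, ha3⟩ := h3 hn3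
      have hne : a ≠ (a⁻¹) ^ 2 := by
        intro e
        apply ha3
        have : a ^ 3 = a ^ 2 * a := by ring
        rw [this]
        nth_rewrite 2 [e]
        field_simp
      have hne' : a ≠ (a ^ 2)⁻¹ := by rwa [← inv_pow]
      refine C.F_torus hB' (d := fun x => if x = i then (a⁻¹) ^ 2 else a) ?_ ?_ hij hjk hik ?_ ?_ t u
      · intro x; split_ifs <;> simp [ha0]
      · rw [LC.prod_one_point, hn3]; simp; field_simp
      · simp [Ne.symm hij, Ne.symm hik]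
      · simp [Ne.symm hij]; exact Ne.symm hne'
    · obtain ⟨j', h1, h2, h3'⟩ := fourth_index (by omega : 4 ≤ n) i j₀ k
      have e1 := C.F_HW hB' hij hjk hik (Ne.symm h1) h3' h2 t 1 u
      rw [mul_one, one_mul] at e1
      rw [e1]
      exact hother j' h1 h3' h2 u
  · exact hother j (Ne.symm hij) hjk hj u

theorem Xt_sig (hn : 3 ≤ n) {i k : Fin n} (hik : i ≠ k) (t : K) : σ (Xt hn ℓ i k t) = θ (Tt i k t) := by
  obtain ⟨h01, h02⟩ := j0_ne hn i k
  unfold Xt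
  rw [C.F_sig h01.symm h02 hik, mul_one]

theorem Xt_rel (hn : 3 ≤ n) (h3 : n = 3 → ∃ a : K, a ≠ 0 ∧ a ^ 3 ≠ 1)
    (hB' : ∀ {i j k l : Fin n}, i ≠ j → k ≠ l → i ≠ l → j ≠ k → ∀ t u : K, ⁅ℓ (Tt i j t), ℓ (Tt k l u)⁆ = 1) :
    Rel (Xt hn ℓ) where
  add := by
    intro i k hik t u
    obtain ⟨h01, h02⟩ := j0_ne hn i k
    unfold Xt
    rw [C.F_add hB' h01.symm h02 hik]
  comm := by
    intro i j k l hij hkl hil hjk t u
    apply commutatorElement_eq_one_iff_mul_comm.1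
    rw [C.lift_comm (C.Xt_sig hn hij t) (C.Xt_sig hn hkl u)]
    exact hB' hij hkl hil hjk t u
  rel := by
    intro i j k hij hjk hik t u
    rw [← commutatorElement_def, C.lift_comm (C.Xt_sig hn hij t) (C.Xt_sig hn hjk u)]
    exact C.hC hn h3 hB' hij hjk hik t u

end LC

/-- **`SL_n(K)` lifts to central extensions.** -/
theorem exists_lift [Finite K] (hn : 3 ≤ n) (h3 : n = 3 → ∃ a : K, a ≠ 0 ∧ a ^ 3 ≠ 1)
    (h4 : n = 4 → (∃ a : K, a ≠ 0 ∧ a ^ 2 ≠ 1) ∨ Nat.card K = 3)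
    (σ : Γ →* L) (hs : Function.Surjective σ) (hc : σ.ker ≤ Subgroup.center Γ)
    (θ : Matrix.SpecialLinearGroup (Fin n) K →* L) :
    ∃ τ : Matrix.SpecialLinearGroup (Fin n) K →* Γ, σ.comp τ = θ := by
  classical
  haveI := Fintype.ofFinite K
  choose ℓ hℓ using fun g => hs (θ g)
  have C : LC σ θ ℓ := ⟨hc, hℓ⟩
  have h4' : n = 4 → (∃ a : K, a ≠ 0 ∧ a ^ 2 ≠ 1) ∨ Fintype.card K = 3 := by
    intro h
    rcases h4 h with h' | h'
    · exact Or.inl h'
    · right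
      rwa [Nat.card_eq_fintype_card] at h'
  have hB' : ∀ {i j k l : Fin n}, i ≠ j → k ≠ l → i ≠ l → j ≠ k → ∀ t u : K, ⁅ℓ (Tt i j t), ℓ (Tt k l u)⁆ = 1 :=
    fun hij hkl hil hjk t u => C.hB h3 h4' hn hij hkl hil hjk t u
  have R := C.Xt_rel hn h3 hB'
  obtain ⟨τ, hτ⟩ := lift_of_rel hn R
  refine ⟨τ, ?_⟩
  haveI : Nontrivial (Fin n) := Fin.nontrivial_iff_two_le.2 (by omega)
  apply MonoidHom.ext
  intro g
  have hg : g ∈ Subgroup.closure {g : Matrix.SpecialLinearGroup (Fin n) K |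
      ∃ (i j : Fin n) (hij : i ≠ j) (a : K), g = Matrix.SpecialLinearGroup.transvection hij a} := by
    rw [Classical.closure_transvections]; trivial
  have hle : Subgroup.closure {g : Matrix.SpecialLinearGroup (Fin n) K |
      ∃ (i j : Fin n) (hij : i ≠ j) (a : K), g = Matrix.SpecialLinearGroup.transvection hij a} ≤
      MonoidHom.eqLocus (σ.comp τ) θ := by
    rw [Subgroup.closure_le]
    rintro _ ⟨i, j, hij, a, rfl⟩
    show σ (τ _) = θ _
    rw [hτ, C.Xt_sig hn hij a, Tt_of hij]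
  exact hle hg

end lift

end Cfsg.Agent.Lib.StN
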