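/-
The Schur multiplier of `PSL_n(q)`, outside the exceptional cases.
-/
import Cfsg.Agent.Lib.StN.Lift
import Cfsg.Agent.Lib.SchurLocal.SL2
import Cfsg.Agent.Lib.Classical.Basic
import Cfsg.Prelude.Def_KGroupFacts

set_option autoImplicit false

open scoped commutatorElement

namespace Cfsg.Agent.Lib.StN

section arith

variable {K : Type*} [Field K] [Fintype K]

lemma exists_pow_ne_one {m : ℕ} (hm : ¬ (Fintype.card K - 1) ∣ m) : ∃ a : K, a ≠ 0 ∧ a ^ m ≠ 1 := by
  classical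
  obtain ⟨g, hg⟩ := IsCyclic.exists_generator (α := Kˣ)
  refine ⟨(g : K), g.ne_zero, fun e => hm ?_⟩
  have e1 : g ^ m = 1 := by
    ext
    simpa using e
  have e2 := orderOf_dvd_of_pow_eq_one e1
  rwa [orderOf_eq_card_of_forall_mem_zpowers hg, Nat.card_eq_fintype_card, Fintype.card_units] at e2

end arith

section fib

variable {F : Type*} [Field F] [Fintype F] {Γ L : Type*} [Group Γ] [Group L] [Finite Γ]

/-- `SL₂(q)` lifts to stem extensions, `q ≠ 4, 9`. -/
theorem lift_SL2 (h4 : Fintype.card F ≠ 4) (h9 : Fintype.card F ≠ 9)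
    (hperf : commutator (Matrix.SpecialLinearGroup (Fin 2) F) = ⊤)
    (σ : Γ →* L) (hs : Function.Surjective σ) (hc : σ.ker ≤ Subgroup.center Γ)
    (θ : Matrix.SpecialLinearGroup (Fin 2) F →* L) :
    ∃ τ : Matrix.SpecialLinearGroup (Fin 2) F →* Γ, σ.comp τ = θ := by
  classical
  -- the fibre product
  let Φ : Subgroup (Γ × Matrix.SpecialLinearGroup (Fin 2) F) :=
    MonoidHom.eqLocus (σ.comp (MonoidHom.fst _ _)) (θ.comp (MonoidHom.snd _ _))
  let p₁ : Φ →* Γ := (MonoidHom.fst _ _).comp Φ.subtype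
  let p₂ : Φ →* Matrix.SpecialLinearGroup (Fin 2) F := (MonoidHom.snd _ _).comp Φ.subtype
  have hΦ : ∀ x : Φ, σ (p₁ x) = θ (p₂ x) := fun x => x.2
  have hp₂ : Function.Surjective p₂ := by
    intro c
    obtain ⟨g, hg⟩ := hs (θ c)
    exact ⟨⟨(g, c), hg⟩, rfl⟩
  have hker : ∀ x : Φ, p₂ x = 1 → ∀ y : Φ, y * x = x * y := by
    intro x hx y
    have h1 : σ (p₁ x) = 1 := by rw [hΦ, hx, map_one]
    have h2 : p₁ x ∈ Subgroup.center Γ := hc h1
    apply Subtype.ext
    apply Prod.ext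
    · exact Subgroup.mem_center_iff.1 h2 (p₁ y)
    · have : (x : Γ × Matrix.SpecialLinearGroup (Fin 2) F).2 = 1 := hx
      show ((y : Γ × Matrix.SpecialLinearGroup (Fin 2) F).2) * (x : Γ × Matrix.SpecialLinearGroup (Fin 2) F).2 =
        (x : Γ × Matrix.SpecialLinearGroup (Fin 2) F).2 * (y : Γ × Matrix.SpecialLinearGroup (Fin 2) F).2
      rw [this, mul_one, one_mul]
  let D : Subgroup Φ := commutator Φ
  let ρ : D →* Matrix.SpecialLinearGroup (Fin 2) F := p₂.comp D.subtype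
  have hρ : Function.Surjective ρ := by
    intro c
    have h1 : D.map p₂ = ⊤ := by
      show (commutator Φ).map p₂ = ⊤
      rw [commutator_def, Subgroup.map_commutator, Subgroup.map_top_of_surjective _ hp₂, ← commutator_def, hperf]
    have h2 : c ∈ D.map p₂ := by rw [h1]; trivial
    obtain ⟨x, hx, hxc⟩ := h2
    exact ⟨⟨x, hx⟩, hxc⟩
  have hρc : ρ.ker ≤ Subgroup.center D := by
    intro x hx
    rw [Subgroup.mem_center_iff]
    intro y
    apply Subtype.ext
    exact hker x.1 hx y.1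
  have hform : ∀ u : Φ, ∃ d : D, ∃ z : Φ, p₂ z = 1 ∧ u = d.1 * z := by
    intro u
    obtain ⟨d, hd⟩ := hρ (p₂ u)
    refine ⟨d, d.1⁻¹ * u, ?_, by group⟩
    rw [map_mul, map_inv]
    have : p₂ d.1 = p₂ u := hd
    rw [this, inv_mul_cancel]
  have hDD : (commutator Φ) ≤ (commutator D).map D.subtype := by
    rw [commutator_def, Subgroup.commutator_le]
    intro u _ v _
    obtain ⟨d₁, z₁, hz₁, rfl⟩ := hform u
    obtain ⟨d₂, z₂, hz₂, rfl⟩ := hform v
    rw [cmL (hker z₁ hz₁), cmR (hker z₂ hz₂)]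
    refine ⟨⁅d₁, d₂⁆, ?_, by simp⟩
    exact Subgroup.commutator_mem_commutator (Subgroup.mem_top _) (Subgroup.mem_top _)
  have hρd : ρ.ker ≤ commutator D := by
    intro x _
    obtain ⟨y, hy, hyx⟩ := hDD x.2
    have : y = x := Subtype.ext hyx
    rwa [← this]
  have hbot := Cfsg.Agent.Lib.SchurLocal.ker_eq_bot_SL2 ρ ⟨hρ, hρc, hρd⟩ h4 h9
  have hinj : Function.Injective ρ := (MonoidHom.ker_eq_bot_iff ρ).1 hbot
  let e : D ≃* Matrix.SpecialLinearGroup (Fin 2) F := MulEquiv.ofBijective ρ ⟨hinj, hρ⟩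
  refine ⟨(p₁.comp D.subtype).comp e.symm.toMonoidHom, ?_⟩
  apply MonoidHom.ext
  intro g
  have e1 : ρ (e.symm g) = g := e.apply_symm_apply g
  show σ (p₁ (e.symm g).1) = θ g
  rw [hΦ]
  exact congrArg θ e1

end fib

section main

variable {F : Type*} [Field F] [Fintype F]

/-- Perfectness of `SL₂(q)`, `q ≥ 4`. -/
lemma perfect_SL2 (hq : 4 ≤ Fintype.card F) : commutator (Matrix.SpecialLinearGroup (Fin 2) F) = ⊤ := by
  obtain ⟨a, ha0, ha2⟩ := exists_pow_ne_one (K := F) (m := 2) (fun h => by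
    have := Nat.le_of_dvd (by norm_num) h
    omega)
  rw [eq_top_iff, ← Classical.closure_transvections, Subgroup.closure_le]
  rintro _ ⟨i, j, hij, c, rfl⟩
  exact Subgroup.subset_closure (Classical.transvection_mem_commutatorSet_of_diag hij c a ha0 ha2) |> fun h => by
    rw [commutator_eq_closure]
    exact h

/-- The universal property of `SL_n(q)`. -/
theorem universal_SL {Γ L : Type*} [Group Γ] [Group L] [Finite Γ] {n : ℕ} (hn : 2 ≤ n) (h2 : n = 2 → 4 ≤ Fintype.card F)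
    (hexc : (n, Fintype.card F) ∉ ({(2, 4), (2, 9), (3, 2), (3, 4), (4, 2)} : Set (ℕ × ℕ)))
    (σ : Γ →* L) (hs : Function.Surjective σ) (hc : σ.ker ≤ Subgroup.center Γ)
    (θ : Matrix.SpecialLinearGroup (Fin n) F →* L) :
    ∃ τ : Matrix.SpecialLinearGroup (Fin n) F →* Γ, σ.comp τ = θ := by
  simp only [Set.mem_insert_iff, Set.mem_singleton_iff, Prod.mk.injEq, not_or, not_and] at hexc
  obtain ⟨h24, h29, h32, h34, h42⟩ := hexc
  have hq2 : 2 ≤ Fintype.card F := Fintype.one_lt_card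
  by_cases hn2 : n = 2
  · subst hn2
    exact lift_SL2 (h24 rfl) (h29 rfl) (perfect_SL2 (h2 rfl)) σ hs hc θ
  · refine exists_lift (by omega) ?_ ?_ σ hs hc θ
    · intro h3
      refine exists_pow_ne_one (fun hd => ?_)
      have h1 := Nat.le_of_dvd (by norm_num) hd
      have h5 := h32 h3
      have h6 := h34 h3
      have : Fintype.card F - 1 = 1 ∨ Fintype.card F - 1 = 3 := (Nat.dvd_prime Nat.prime_three).1 hd
      omega
    · intro h4
      by_cases h3 : Nat.card F = 3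
      · exact Or.inr h3
      · left
        rw [Nat.card_eq_fintype_card] at h3
        refine exists_pow_ne_one (fun hd => ?_)
        have h5 := h42 h4
        have : Fintype.card F - 1 = 1 ∨ Fintype.card F - 1 = 2 := (Nat.dvd_prime Nat.prime_two).1 hd
        omega

end main

section final

variable {Δ Γ G : Type*} [Group Δ] [Group Γ] [Group G]

/-- The kernel of a stem extension is the image of the kernel of a lift. -/
lemma stem_ker_image' {σ : Γ →* G} (hσ : IsStemExtension σ) {θ : Δ →* G} (hθ : Function.Surjective θ) {τ : Δ →* Γ}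
    (hτ : σ.comp τ = θ) {x : Γ} (hx : x ∈ σ.ker) : ∃ g ∈ θ.ker, τ g = x := by
  obtain ⟨_, hc, hd⟩ := hσ
  have hτ' : ∀ g, σ (τ g) = θ g := fun g => congrArg (fun φ : Δ →* G => φ g) hτ
  have hform : ∀ a : Γ, ∃ a' : Δ, ∃ z ∈ σ.ker, a = τ a' * z := by
    intro a
    obtain ⟨a', ha'⟩ := hθ (σ a)
    refine ⟨a', (τ a')⁻¹ * a, ?_, by group⟩
    rw [MonoidHom.mem_ker, map_mul, map_inv, hτ', ha', inv_mul_cancel]
  have h1 : commutator Γ ≤ τ.range := by
    rw [commutator_def, Subgroup.commutator_le]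
    intro a _ b _
    obtain ⟨a', z, hz, rfl⟩ := hform a
    obtain ⟨b', w, hw, rfl⟩ := hform b
    rw [cmL (Subgroup.mem_center_iff.1 (hc hz)), cmR (Subgroup.mem_center_iff.1 (hc hw)), ← map_commutatorElement]
    exact ⟨_, rfl⟩
  obtain ⟨g, rfl⟩ := h1 (hd hx)
  refine ⟨g, ?_, rfl⟩
  rw [MonoidHom.mem_ker, ← hτ']
  exact hx

end final

universe u

/-- **The Schur multiplier of `PSL_n(q)`.** -/
theorem schur_PSL {F : Type u} [Field F] [Fintype F] {q : ℕ} (hF : Fintype.card F = q) (n : ℕ) (hn : 2 ≤ n)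
    (h2 : n = 2 → 4 ≤ q) (hexc : (n, q) ∉ ({(2, 4), (2, 9), (3, 2), (3, 4), (4, 2)} : Set (ℕ × ℕ))) :
    HasCyclicSchurMultiplier (Matrix.ProjectiveSpecialLinearGroup (Fin n) F) (Nat.gcd n (q - 1)) := by
  classical
  subst hF
  let θ : Matrix.SpecialLinearGroup (Fin n) F →* Matrix.ProjectiveSpecialLinearGroup (Fin n) F := QuotientGroup.mk' _
  have hθ : Function.Surjective θ := QuotientGroup.mk'_surjective _
  have hker : θ.ker = Subgroup.center _ := QuotientGroup.ker_mk' _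
  have hperf : commutator (Matrix.SpecialLinearGroup (Fin n) F) = ⊤ := by
    by_cases hn2 : n = 2
    · subst hn2
      exact perfect_SL2 (h2 rfl)
    · exact Classical.commutator_SL_eq_top (by simp; omega)
  haveI : NeZero n := ⟨by omega⟩
  let i₀ : Fin n := ⟨0, by omega⟩
  let e₁ : Subgroup.center (Matrix.SpecialLinearGroup (Fin n) F) ≃* rootsOfUnity (Fintype.card (Fin n)) F :=
    Matrix.SpecialLinearGroup.center_equiv_rootsOfUnity' i₀
  haveI : NeZero (Fintype.card (Fin n)) := ⟨by simp; omega⟩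
  have hcy : IsCyclic (rootsOfUnity (Fintype.card (Fin n)) F) := inferInstance
  have hcard : Nat.card (rootsOfUnity (Fintype.card (Fin n)) F) = Nat.gcd n (Fintype.card F - 1) := by
    rw [Classical.card_rootsOfUnity_field, Fintype.card_fin]
  let e₂ : Multiplicative (ZMod (Nat.gcd n (Fintype.card F - 1))) ≃* rootsOfUnity (Fintype.card (Fin n)) F := by
    rw [← hcard]
    exact zmodCyclicMulEquiv hcy
  let e : θ.ker ≃* Multiplicative (ZMod (Nat.gcd n (Fintype.card F - 1))) :=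
    (MulEquiv.subgroupCongr hker).trans (e₁.trans e₂.symm)
  refine ⟨⟨_, inferInstance, inferInstance, θ, ⟨hθ, ?_, ?_⟩, ⟨e⟩⟩, ?_⟩
  · rw [hker]
  · rw [hperf]
    exact le_top
  · intro Γ _ _ σ hσ
    obtain ⟨τ, hτ⟩ := universal_SL hn h2 hexc σ hσ.1 hσ.2.1 θ
    have hτ' : ∀ g, σ (τ g) = θ g := fun g => congrArg (fun φ : Matrix.SpecialLinearGroup (Fin n) F →* _ => φ g) hτ
    let φ : θ.ker →* σ.ker := (τ.comp θ.ker.subtype).codRestrict σ.ker (fun g => by
      show σ (τ g.1) = 1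
      rw [hτ']
      exact g.2)
    refine ⟨φ.comp e.symm.toMonoidHom, ?_⟩
    rintro ⟨x, hx⟩
    obtain ⟨g, hg, rfl⟩ := stem_ker_image' hσ hθ hτ hx
    refine ⟨e ⟨g, hg⟩, ?_⟩
    apply Subtype.ext
    show τ (e.symm (e ⟨g, hg⟩)).1 = τ g
    rw [e.symm_apply_apply]

end Cfsg.Agent.Lib.StN
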